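import Cfsg.Agent.Lib.Geometric.Unitary

/-!
The standard unitary form on `ι → F` for an arbitrary finite index type, its isometry group, and
the standing hypotheses for prime fields `|F| = p²`, `p ≡ 2 (mod 3)`.
-/

set_option autoImplicit false

namespace CfsgLib.Geometric.SUNine

open Matrix

variable {F : Type*} [Field F] {ι : Type} [Fintype ι] [DecidableEq ι]

/-- The form `∑ x i σ(y i)`. -/
def uForm (σ : F ≃+* F) (x y : ι → F) : F := ∑ i, x i * σ (y i)

/-- Its isometry group. -/
abbrev UU (ι : Type) [Fintype ι] [DecidableEq ι] {F : Type*} [Field F] (σ : F ≃+* F) :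
    Subgroup (GL ι F) :=
  isom (uForm (ι := ι) σ)

lemma uForm_single (σ : F ≃+* F) (i j : ι) :
    uForm σ (Pi.single i (1 : F)) (Pi.single j 1) = if i = j then 1 else 0 := by
  rw [uForm, Finset.sum_eq_single i]
  · rcases eq_or_ne i j with rfl | h
    · simp
    · simp [h]
  · intro k _ hk; simp [Pi.single_eq_of_ne hk]
  · simp

/-- An invertible matrix is an isometry when its columns are orthonormal. -/
lemma mem_UU_iff (σ : F ≃+* F) (g : GL ι F) :
    g ∈ UU ι σ ↔
      ((g : Matrix ι ι F)ᵀ * (g : Matrix ι ι F).map σ = 1) := by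
  have key : ∀ x y : ι → F, uForm σ (ap g x) (ap g y) =
      x ⬝ᵥ (((g : Matrix ι ι F)ᵀ * (g : Matrix ι ι F).map σ) *ᵥ fun i => σ (y i)) := by
    intro x y
    have e : (fun i => σ (ap g y i)) = (g : Matrix ι ι F).map σ *ᵥ fun i => σ (y i) := by
      funext i
      simp [ap, mulVec, dotProduct, map_sum]
    rw [← mulVec_mulVec, dotProduct_mulVec, vecMul_transpose, ← e]
    rfl
  constructor
  · intro h
    ext i j
    have h' := h (Pi.single i 1) (Pi.single j 1)
    change uForm σ (ap g _) (ap g _) = _ at h'
    rw [key, uForm_single] at h'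
    rw [Matrix.one_apply, ← h', show (fun k => σ ((Pi.single j 1 : ι → F) k)) = Pi.single j 1 from
      funext fun k => by rcases eq_or_ne k j with rfl | hk <;> simp [*], single_dotProduct,
      mulVec_single_one, one_mul]
    rfl
  · intro h x y
    change uForm σ (ap g x) (ap g y) = _
    rw [key, h, one_mulVec]
    rfl

end CfsgLib.Geometric.SUNine
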