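import Cfsg.Agent.Lib.Geometric.SLNine.Defs
import Cfsg.Agent.Lib.Geometric.SUNine.UForm
import Cfsg.Agent.Lib.Geometric.UnitaryMonomial.Thm

/-!
An overgroup of the monomial group of the standard frame in `SU₉` which is not monomial is all of
`SU₉`.
-/

set_option autoImplicit false
set_option linter.unusedSectionVars false

namespace CfsgLib.Geometric.SUNine

open CfsgLib.Geometric.SLNine Matrix

variable {F : Type*} [Field F]

/-- The sign of a permutation as a scalar unit. -/
noncomputable def sgnUnit (π : Equiv.Perm J9) : Fˣ :=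
  Units.map (Int.castRingHom F).toMonoidHom (Equiv.Perm.sign π)

lemma pmHom_eq_mon (π : Equiv.Perm J9) :
    pmHom (F := F) π = mon π (fun _ => sgnUnit π) := by
  refine Units.ext (Matrix.ext fun i j => ?_)
  have h : (mon π (fun _ => sgnUnit (F := F) π) : Matrix J9 J9 F) i j =
      ap (mon π (fun _ => sgnUnit (F := F) π)) (Pi.single j 1) i := by
    rw [ap_def, Matrix.mulVec_single_one]; rfl
  rw [h, ap_mon_single, mul_one, Pi.single_apply]
  show pmat π i j = _
  simp [pmat, sgnUnit]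

/-- Generation of `SU₉` by the monomial group and a non-monomial element. -/
theorem le_of_monomial [Fintype F] {q : ℕ} (hF : Fintype.card F = q ^ 2) {σ : F ≃+* F}
    (hσ : ∀ x, σ x = x ^ q) {M : Subgroup (GL J9 F)}
    (hM : M ≤ UU J9 σ ⊓ Cfsg.Geo.specialLinear J9 F)
    (hdiag : ∀ g : GL J9 F, (∃ d : J9 → F, (g : Matrix J9 J9 F) = Matrix.diagonal d) →
      g ∈ UU J9 σ ⊓ Cfsg.Geo.specialLinear J9 F → g ∈ M)
    (hperm : ∀ π : Equiv.Perm J9, pmHom π ∈ M)
    (hnot : ∃ g ∈ M, ∃ i i' j, i ≠ i' ∧ (g : Matrix J9 J9 F) i j ≠ 0 ∧ (g : Matrix J9 J9 F) i' j ≠ 0) :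
    UU J9 σ ⊓ Cfsg.Geo.specialLinear J9 F ≤ M := by
  classical
  have hc : CfsgLib.UMon.IsConj σ q := ⟨hF, hσ⟩
  obtain ⟨ζ, hζ, hζσ, hf⟩ := CfsgLib.UMon.exists_skewForm (ι := J9) hc
  have hMon : CfsgLib.UMon.MonIn σ M := by
    intro π c hcir hdet
    set d : J9 → Fˣ := fun m => c m * (sgnUnit π)⁻¹ with hd
    have e : mon π c = mon 1 d * pmHom π := by
      rw [pmHom_eq_mon, mon_mul, one_mul]
      congr 1
      funext m
      simp [hd]
    have h2 : mon 1 d = mon π c * (pmHom π)⁻¹ := by rw [e, mul_inv_cancel_right]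
    have hD : mon 1 d ∈ M := by
      refine hdiag _ ⟨fun m => (d m : F), Matrix.ext fun i j => ?_⟩ ?_
      · have h : (mon 1 d : Matrix J9 J9 F) i j = ap (mon 1 d) (Pi.single j 1) i := by
          rw [ap_def, Matrix.mulVec_single_one]; rfl
        rw [h, ap_mon_single, mul_one, Equiv.Perm.one_apply, Pi.single_apply, Matrix.diagonal_apply]
        by_cases hij : i = j <;> simp [hij]
      · rw [h2]
        exact mul_mem (Subgroup.mem_inf.2 ⟨CfsgLib.UMon.mon_mem_GUs hcir, (mem_specialLinear_iff _).2 hdet⟩)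
          (inv_mem (hM (hperm π)))
    rw [e]
    exact mul_mem hD (hperm π)
  obtain ⟨g, hg, i, i', j, hne, hi, hi'⟩ := hnot
  exact CfsgLib.UMon.le_of_not_isMon hc (show 9 ≤ Fintype.card J9 by decide)
    (fun x hx => (hM hx).1) hMon hζ hζσ hf hg
    (CfsgLib.UMon.not_isMon_of_two (j := j) hne (by rw [ap_def, Matrix.mulVec_single_one]; exact hi)
      (by rw [ap_def, Matrix.mulVec_single_one]; exact hi'))

end CfsgLib.Geometric.SUNine
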