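import Cfsg.Agent.Lib.Geometric.SUNine.AmbMem
import Cfsg.Agent.Lib.Geometric.SUNine.Gen

/-!
The block diagonal part and the normaliser of the Pauli group generate `SU₉(p)`.
-/

set_option autoImplicit false

namespace CfsgLib.Geometric.SUNine

open Matrix CfsgLib.Geometric.SLNine
open scoped Kronecker

variable {F : Type*} [Field F]

/-- An invertible diagonal matrix. -/
noncomputable def diagGL {ι : Type} [Fintype ι] [DecidableEq ι] (d : ι → F) (hd : ∀ i, d i ≠ 0) :
    GL ι F where
  val := Matrix.diagonal d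
  inv := Matrix.diagonal fun i => (d i)⁻¹
  val_inv := by rw [diagonal_mul_diagonal, ← diagonal_one]; congr 1; funext i; exact mul_inv_cancel₀ (hd i)
  inv_val := by rw [diagonal_mul_diagonal, ← diagonal_one]; congr 1; funext i; exact inv_mul_cancel₀ (hd i)

lemma coe_diagGL {ι : Type} [Fintype ι] [DecidableEq ι] (d : ι → F) (hd : ∀ i, d i ≠ 0) :
    (diagGL d hd : Matrix ι ι F) = Matrix.diagonal d := rfl

lemma bd_diagonal (d : J9 → F) :
    bd (fun i => Matrix.diagonal fun k => d (i, k)) = Matrix.diagonal d := by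
  ext ⟨i, k⟩ ⟨j, l⟩
  by_cases h : i = j
  · subst h; by_cases h' : k = l <;> simp [bd_apply, h']
  · simp [bd_apply, h]

lemma pmat_mul_diagonal (π : Equiv.Perm J9) (d : J9 → F) :
    pmat π * Matrix.diagonal (fun x => d (π x)) = Matrix.diagonal d * pmat π := by
  ext i j
  rw [mul_diagonal, diagonal_mul]
  by_cases h : i = π j
  · subst h; simp [pmat, mul_comm]
  · simp [pmat, h]

lemma diagonal_mem_UU {ι : Type} [Fintype ι] [DecidableEq ι] {σ : F ≃+* F} {g : GL ι F} {d : ι → F}
    (hg : (g : Matrix ι ι F) = Matrix.diagonal d) : g ∈ UU ι σ ↔ ∀ i, d i * σ (d i) = 1 := by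
  rw [mem_UU_iff, hg, diagonal_transpose, diagonal_map (map_zero σ), diagonal_mul_diagonal,
    ← diagonal_one, diagonal_injective.eq_iff, funext_iff]

variable {σ : F ≃+* F} {M : Subgroup (GL J9 F)}

/-- Diagonal isometries of determinant one come from the blocks and the exchange of factors. -/
lemma diag_mem (hbd : ∀ a : ZMod 3 → GL (ZMod 3) F,
      (∀ i, a i ∈ UU (ZMod 3) σ ⊓ Cfsg.Geo.specialLinear (ZMod 3) F) → bdHom a ∈ M)
    (hsw : pmHom swapPerm ∈ M) {g : GL J9 F} {d : J9 → F}
    (hg : (g : Matrix J9 J9 F) = Matrix.diagonal d) (hgU : g ∈ UU J9 σ)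
    (hgS : g ∈ Cfsg.Geo.specialLinear J9 F) : g ∈ M := by
  classical
  have hu := (diagonal_mem_UU hg).1 hgU
  have hd0 : ∀ x, d x ≠ 0 := fun x h => by simpa [h] using hu x
  set D : ZMod 3 → F := fun i => d (i, 0) * d (i, 1) * d (i, 2) with hD
  have hDu : ∀ i, D i * σ (D i) = 1 := fun i => by
    have h0 := hu (i, 0); have h1 := hu (i, 1); have h2 := hu (i, 2)
    simp only [hD, map_mul]
    linear_combination (d (i,1) * σ (d (i,1)) * (d (i,2) * σ (d (i,2)))) * h0 +
      (d (i,2) * σ (d (i,2))) * h1 + h2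
  have hD0 : ∀ i, D i ≠ 0 := fun i h => by simpa [h] using hDu i
  have hprod : D 0 * D 1 * D 2 = 1 := by
    have h := SLNine.mem_specialLinear.1 hgS
    rw [hg, det_diagonal, Fintype.prod_prod_type] at h
    rw [show (∏ x : ZMod 3, ∏ y : ZMod 3, d (x, y)) = D 0 * D 1 * D 2 from ?_] at h
    · exact h
    · have e : ∀ f : ZMod 3 → F, ∏ x, f x = f 0 * f 1 * f 2 := fun f => Fin.prod_univ_three f
      simp only [e, hD]
  have h3 : ∀ e : ZMod 3 → F, (∀ i, e i * σ (e i) = 1) → e 0 * e 1 * e 2 = 1 →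
      ∀ h : ∀ i, e i ≠ 0, diagGL e h ∈ UU (ZMod 3) σ ⊓ Cfsg.Geo.specialLinear (ZMod 3) F :=
    fun e he hp h => ⟨(diagonal_mem_UU (coe_diagGL e h)).2 he, SLNine.mem_specialLinear.2 (by
      rw [coe_diagGL, det_diagonal]; exact (Fin.prod_univ_three e).trans hp)⟩
  set a : ZMod 3 → ZMod 3 → F := fun i k => if k = 0 then d (i, 0) / D i else d (i, k) with ha
  set b : ZMod 3 → ZMod 3 → F := fun k i => if k = 0 then D i else 1 with hb
  have hau : ∀ i k, a i k * σ (a i k) = 1 := fun i k => by
    by_cases hk : k = 0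
    · simp only [ha, if_pos hk, map_div₀, div_mul_div_comm, hu, hDu, div_one]
    · simp only [ha, if_neg hk, hu]
  have ha0 : ∀ i k, a i k ≠ 0 := fun i k h => by simpa [h] using hau i k
  have hbu : ∀ k i, b k i * σ (b k i) = 1 := fun k i => by
    by_cases hk : k = 0 <;> simp [hb, hk, hDu]
  have hb0 : ∀ k i, b k i ≠ 0 := fun k i h => by simpa [h] using hbu k i
  have hA : bdHom (fun i => diagGL (a i) (ha0 i)) ∈ M := hbd _ fun i =>
    h3 _ (hau i) (by
      simp only [ha, if_pos, show (1 : ZMod 3) ≠ 0 by decide, show (2 : ZMod 3) ≠ 0 by decide,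
        if_false]
      field_simp [hD0 i]
      exact (congrFun hD i).symm) (ha0 i)
  have hB : bdHom (fun k => diagGL (b k) (hb0 k)) ∈ M := hbd _ fun k =>
    h3 _ (hbu k) (by by_cases hk : k = 0 <;> simp [hb, hk, hprod]) (hb0 k)
  have e : g = bdHom (fun i => diagGL (a i) (ha0 i)) *
      (pmHom swapPerm * bdHom (fun k => diagGL (b k) (hb0 k)) * (pmHom swapPerm)⁻¹) := by
    rw [← mul_assoc, eq_mul_inv_iff_mul_eq]
    refine Units.ext ?_
    simp only [Units.val_mul, coe_bdHom, coe_diagGL, hg]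
    rw [show bd (fun i => Matrix.diagonal (a i)) = Matrix.diagonal fun x : J9 => a x.1 x.2 from
        bd_diagonal fun x => a x.1 x.2,
      show bd (fun k => Matrix.diagonal (b k)) = Matrix.diagonal fun x : J9 => b x.1 x.2 from
        bd_diagonal fun x => b x.1 x.2]
    show Matrix.diagonal d * pmat swapPerm = Matrix.diagonal _ * (pmat swapPerm * Matrix.diagonal _)
    have hc : pmat (F := F) swapPerm * Matrix.diagonal (fun x : J9 => b x.1 x.2) =
        Matrix.diagonal (fun x : J9 => b x.2 x.1) * pmat swapPerm :=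
      pmat_mul_diagonal swapPerm fun x => b x.2 x.1
    rw [hc, ← mul_assoc, diagonal_mul_diagonal]
    congr 2
    funext x
    obtain ⟨i, k⟩ := x
    by_cases hk : k = 0
    · subst hk
      simp [ha, hb, div_mul_cancel₀ _ (hD0 i)]
    · simp [ha, hb, hk]
  rw [e]
  exact mul_mem hA (mul_mem (mul_mem hsw hB) (inv_mem hsw))

/-- Signed transpositions inside a block. -/
lemma pm_row_mem (hbd : ∀ a : ZMod 3 → GL (ZMod 3) F,
      (∀ i, a i ∈ UU (ZMod 3) σ ⊓ Cfsg.Geo.specialLinear (ZMod 3) F) → bdHom a ∈ M)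
    (hdiag : ∀ (g : GL J9 F) (d : J9 → F), (g : Matrix J9 J9 F) = Matrix.diagonal d →
      g ∈ UU J9 σ → g ∈ Cfsg.Geo.specialLinear J9 F → g ∈ M)
    (i k l : ZMod 3) (hkl : k ≠ l) : pmHom (Equiv.swap ((i, k) : J9) (i, l)) ∈ M := by
  classical
  set τ : Equiv.Perm J9 := Equiv.swap ((i, k) : J9) (i, l) with hτ
  set dd : J9 → F := fun x => if x.1 = i then 1 else -1 with hdd
  have hdd0 : ∀ x, dd x ≠ 0 := fun x => by by_cases h : x.1 = i <;> simp [hdd, h]
  have hne : ((i, k) : J9) ≠ (i, l) := fun h => hkl (congrArg Prod.snd h)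
  have hD : diagGL dd hdd0 ∈ UU J9 σ ⊓ Cfsg.Geo.specialLinear J9 F := by
    refine ⟨(diagonal_mem_UU (coe_diagGL dd hdd0)).2 fun x => ?_, SLNine.mem_specialLinear.2 ?_⟩
    · by_cases h : x.1 = i <;> simp [hdd, h]
    · rw [coe_diagGL, det_diagonal, Fintype.prod_prod_type]
      have e : ∀ f : ZMod 3 → F, ∏ x, f x = f 0 * f 1 * f 2 := fun f => Fin.prod_univ_three f
      simp only [e, hdd]
      rcases SLNine.zmod_cases i with rfl | rfl | rfl <;> simp +decide
  have hDM : diagGL dd hdd0 ∈ M := hdiag _ dd rfl hD.1 hD.2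
  set P : Matrix (ZMod 3) (ZMod 3) F := -((Equiv.swap k l).permMatrix F) with hP
  have hPP : P * P = 1 := by
    rw [hP, neg_mul_neg, ← Matrix.permMatrix_mul, Equiv.swap_mul_self, Matrix.permMatrix_one]
  have hPdet : P.det = 1 := by
    rw [hP, det_neg, det_permutation, Equiv.Perm.sign_swap hkl]; norm_num [ZMod.card]
  let PG : GL (ZMod 3) F := ⟨P, P, hPP, hPP⟩
  have hPt : Pᵀ * P.map σ = 1 := by
    have h1 : Pᵀ = P := by
      rw [hP, transpose_neg, Matrix.transpose_permMatrix, Equiv.swap_inv]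
    have h2 : P.map σ = P := by
      ext x y
      simp only [hP, map_apply, Matrix.neg_apply, map_neg, Equiv.Perm.permMatrix, PEquiv.toMatrix_apply,
        apply_ite σ, map_one, map_zero]
    rw [h1, h2, hPP]
  set a : ZMod 3 → GL (ZMod 3) F := fun j => if j = i then PG else 1 with ha
  have hA : bdHom a ∈ M := hbd a fun j => by
    by_cases h : j = i
    · simp only [ha, if_pos h]
      exact ⟨(mem_UU_iff σ _).2 hPt, SLNine.mem_specialLinear.2 hPdet⟩
    · simp only [ha, if_neg h]; exact one_mem _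
  have e : (pmHom τ : GL J9 F) = bdHom a * diagGL dd hdd0 := by
    refine Units.ext ?_
    rw [Units.val_mul, coe_bdHom, coe_diagGL]
    show pmat τ = _
    ext ⟨x, y⟩ ⟨x', y'⟩
    rw [mul_diagonal, bd_apply]
    simp only [pmat, of_apply, hτ, Equiv.Perm.sign_swap hne]
    by_cases hx : x = x'
    · subst hx
      by_cases hi : x = i
      · subst hi
        rw [if_pos rfl]
        simp only [ha, if_pos, hdd, mul_one]
        show _ = P y y'
        simp only [hP, Matrix.neg_apply, Equiv.Perm.permMatrix, PEquiv.toMatrix_apply,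
          Equiv.toPEquiv_apply, Option.mem_def, Option.some.injEq]
        by_cases hy : y' = k
        · subst hy; simp [Equiv.swap_apply_def]; split_ifs <;> simp_all
        · by_cases hy' : y' = l
          · subst hy'; simp [Equiv.swap_apply_def]; split_ifs <;> simp_all
          · rw [Equiv.swap_apply_of_ne_of_ne (by simp [hy]) (by simp [hy'])]
            simp [Equiv.swap_apply_def]; split_ifs <;> simp_all
      · rw [if_pos rfl, Equiv.swap_apply_of_ne_of_ne (by simp [hi]) (by simp [hi])]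
        simp [ha, hdd, hi, one_apply]; split_ifs <;> simp
    · rw [if_neg hx, zero_mul, if_neg]
      intro h
      apply hx
      have h1 := congrArg Prod.fst h
      rw [Equiv.swap_apply_def] at h1
      split_ifs at h1 with ha' hb' <;> simp_all
  rw [e]
  exact mul_mem hA hDM

/-- All signed permutation matrices. -/
lemma pm_all_mem (hrow : ∀ i k l : ZMod 3, k ≠ l → pmHom (Equiv.swap ((i, k) : J9) (i, l)) ∈ M)
    (hsw : pmHom (F := F) swapPerm ∈ M) (π : Equiv.Perm J9) : pmHom π ∈ M := by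
  classical
  have hcol : ∀ i j k : ZMod 3, i ≠ j → pmHom (Equiv.swap ((i, k) : J9) (j, k)) ∈ M := by
    intro i j k hij
    have e := Equiv.swap_apply_apply swapPerm ((k, i) : J9) (k, j)
    rw [show swapPerm ((k, i) : J9) = (i, k) from rfl, show swapPerm ((k, j) : J9) = (j, k) from rfl] at e
    rw [e, map_mul, map_mul, map_inv]
    exact mul_mem (mul_mem hsw (hrow k i j hij)) (inv_mem hsw)
  have hswap : ∀ x y : J9, x ≠ y → pmHom (F := F) (Equiv.swap x y) ∈ M := by
    rintro ⟨i, k⟩ ⟨j, l⟩ hne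
    by_cases hij : i = j
    · subst hij; exact hrow i k l fun h => hne (by rw [h])
    by_cases hkl : k = l
    · subst hkl; exact hcol i j k hij
    have e := Equiv.swap_apply_apply (Equiv.swap ((i, k) : J9) (i, l)) ((i, l) : J9) (j, l)
    rw [Equiv.swap_apply_right, Equiv.swap_apply_of_ne_of_ne (by simp [Ne.symm hij])
      (by simp [Ne.symm hij])] at e
    rw [e, map_mul, map_mul, map_inv]
    exact mul_mem (mul_mem (hrow i k l hkl) (hcol i j l hij)) (inv_mem (hrow i k l hkl))
  induction π using Equiv.Perm.swap_induction_on with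
  | one => rw [map_one]; exact one_mem _
  | swap_mul f x y hxy ih => rw [map_mul]; exact mul_mem (hswap x y hxy) ih

end CfsgLib.Geometric.SUNine
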