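import Cfsg.Agent.Lib.Geometric.SUNine.UForm
import Cfsg.Agent.Lib.Geometric.SLNine.Defs

/-!
The group generated by the Pauli matrices, the Fourier matrix and the quadratic diagonal in
`GU₃(p)`, its twelve base points, and the elements mapping base points to base points.
-/

set_option autoImplicit false

namespace CfsgLib.Geometric.SUNine

open Matrix CfsgLib.Geometric.SLNine

variable {F : Type*} [Field F]

/-- The standing hypotheses on the field. -/
structure UCtx [Fintype F] (σ : F ≃+* F) (ω : F) (p : ℕ) : Prop where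
  prime : p.Prime
  mod_three : p % 3 = 2
  card : Fintype.card F = p ^ 2
  conj : ∀ x, σ x = x ^ p
  root : IsPrimitiveRoot ω 3

namespace UCtx

variable [Fintype F] {σ : F ≃+* F} {ω : F} {p : ℕ} (C : UCtx σ ω p)
include C

lemma pow_three : ω ^ 3 = 1 := C.root.pow_eq_one

lemma ne_one : ω ≠ 1 := C.root.ne_one (by norm_num)

lemma ne_zero : ω ≠ 0 := C.root.ne_zero (by norm_num)

lemma sum_eq : ω ^ 2 + ω + 1 = 0 := by
  have h : (ω - 1) * (ω ^ 2 + ω + 1) = 0 := by linear_combination C.pow_three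
  exact (mul_eq_zero.1 h).resolve_left (sub_ne_zero.2 C.ne_one)

lemma conj_root : σ ω = ω ^ 2 := by
  rw [C.conj, ← Nat.div_add_mod p 3, pow_add, pow_mul, C.pow_three, one_pow, one_mul, C.mod_three]

lemma conj_root_sq : σ (ω ^ 2) = ω := by
  rw [map_pow, C.conj_root, ← pow_mul, show 2 * 2 = 3 + 1 by norm_num, pow_succ, C.pow_three,
    one_mul]

lemma charP : CharP F p := by
  obtain ⟨l, hl⟩ := CharP.exists F
  obtain ⟨f, hlp, hf⟩ := FiniteField.card F l
  have h : l = p := (Nat.prime_dvd_prime_iff_eq hlp C.prime).1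
    (hlp.dvd_of_dvd_pow (C.card ▸ hf ▸ dvd_pow_self l f.pos.ne'))
  exact h ▸ hl

lemma involutive (x : F) : σ (σ x) = x := by
  rw [C.conj, C.conj, ← pow_mul, ← pow_two, ← C.card, FiniteField.pow_card]

lemma three_ne : (3 : F) ≠ 0 := by
  intro h
  have := C.charP
  have h' : p ∣ 3 := (CharP.cast_eq_zero_iff F p 3).1 (by exact_mod_cast h)
  have := (Nat.prime_dvd_prime_iff_eq C.prime Nat.prime_three).1 h'
  have := C.mod_three
  omega

lemma theta_ne : ω - ω ^ 2 ≠ 0 := by
  intro h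
  have h1 : ω * (1 - ω) = 0 := by linear_combination h
  exact C.ne_one (sub_eq_zero.1 ((mul_eq_zero.1 h1).resolve_left C.ne_zero)).symm

lemma ph_conj (a : ZMod 3) : σ (ph ω a) = ph ω (-a) := by
  obtain rfl | rfl | rfl : a = 0 ∨ a = 1 ∨ a = 2 := by revert a; decide
  · change σ (ω ^ 0) = ω ^ 0; simp
  · change σ (ω ^ 1) = ω ^ 2; rw [pow_one, C.conj_root]
  · change σ (ω ^ 2) = ω ^ 1; rw [pow_one, C.conj_root_sq]

lemma ph_add (a b : ZMod 3) : ph ω (a + b) = ph ω a * ph ω b := by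
  simp only [ph, ZMod.val_add, ← pow_add]
  exact (pow_eq_pow_mod _ C.pow_three).symm

end UCtx

lemma ph_zero (ω : F) : ph ω 0 = 1 := pow_zero ω

lemma sum_three (f : ZMod 3 → F) : ∑ k, f k = f 0 + f 1 + f 2 := Fin.sum_univ_three f

/-- The matrix of `x ↦ x + (η - 1) (f(x,c) / f(c,c)) c` for `η = ω²`. -/
def homMat (σ : F ≃+* F) (ω : F) (c : ZMod 3 → F) : Matrix (ZMod 3) (ZMod 3) F :=
  1 + ((ω ^ 2 - 1) / uForm σ c c) • vecMulVec c fun i => σ (c i)

lemma homMat_mulVec (σ : F ≃+* F) (ω : F) (c x : ZMod 3 → F) :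
    homMat σ ω c *ᵥ x = x + ((ω ^ 2 - 1) / uForm σ c c * uForm σ x c) • c := by
  rw [homMat, add_mulVec, one_mulVec, smul_mulVec, vecMulVec_mulVec, op_smul_eq_smul, smul_smul]
  congr 3
  exact Finset.sum_congr rfl fun i _ => mul_comm _ _

lemma uForm_smul (σ : F ≃+* F) (a b : F) (x y : ZMod 3 → F) :
    uForm σ (a • x) (b • y) = a * σ b * uForm σ x y := by
  simp only [uForm, Finset.mul_sum, Pi.smul_apply, smul_eq_mul, map_mul]
  exact Finset.sum_congr rfl fun i _ => by ring

lemma homMat_smul {σ : F ≃+* F} {ω a : F} (ha : a ≠ 0) (c : ZMod 3 → F) :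
    homMat σ ω (a • c) = homMat σ ω c := by
  refine ext_of_mulVec_single fun i => ?_
  have h2 := uForm_smul σ (1 : F) a (Pi.single i 1) c
  rw [one_smul, one_mul] at h2
  rw [homMat_mulVec, homMat_mulVec, uForm_smul, h2, smul_smul]
  congr 2
  have hs : σ a ≠ 0 := by simpa using ha
  by_cases h : uForm σ c c = 0
  · simp [h]
  · field_simp

/-- The twelve base lines. -/
def IsBase (c : ZMod 3 → F) : Prop :=
  c ≠ 0 ∧ ((∃ i, ∀ j, j ≠ i → c j = 0) ∨ ∀ i, c i ^ 3 = c 0 ^ 3)

/-- A scalar multiple of the homology with centre `c` lies in `H`. -/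
def InC (H : Subgroup (GL (ZMod 3) F)) (σ : F ≃+* F) (ω : F) (c : ZMod 3 → F) : Prop :=
  ∃ g ∈ H, ∃ a : F, (g : Matrix (ZMod 3) (ZMod 3) F) = a • homMat σ ω c

lemma homMat_conj {σ : F ≃+* F} {ω : F} {g : GL (ZMod 3) F} (hg : g ∈ UU (ZMod 3) σ)
    (c : ZMod 3 → F) :
    (g : Matrix (ZMod 3) (ZMod 3) F) * homMat σ ω c * ((g⁻¹ : GL (ZMod 3) F) : Matrix _ _ F) =
      homMat σ ω (ap g c) := by
  refine ext_of_mulVec_single fun i => ?_
  rw [← mulVec_mulVec, ← mulVec_mulVec, homMat_mulVec, homMat_mulVec, mulVec_add, mulVec_smul]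
  have e1 : uForm σ (ap g c) (ap g c) = uForm σ c c := hg c c
  have e2 : uForm σ (Pi.single i 1) (ap g c) = uForm σ (ap g⁻¹ (Pi.single i 1)) c := by
    conv_lhs => rw [← ap_ap_inv g (Pi.single i 1)]
    exact hg _ c
  rw [e1, e2]
  congr 1
  exact ap_ap_inv g _

lemma inC_ap {H : Subgroup (GL (ZMod 3) F)} {σ : F ≃+* F} {ω : F} (hH : H ≤ UU (ZMod 3) σ)
    {g : GL (ZMod 3) F} (hg : g ∈ H) {c : ZMod 3 → F} (hc : InC H σ ω c) :
    InC H σ ω (ap g c) := by
  obtain ⟨h, hh, a, ha⟩ := hc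
  refine ⟨g * h * g⁻¹, mul_mem (mul_mem hg hh) (inv_mem hg), a, ?_⟩
  rw [Units.val_mul, Units.val_mul, ha, mul_smul_comm, smul_mul_assoc, homMat_conj (hH hg)]

/-- An invertible matrix from orthonormal columns. -/
def mkUU (σ : F ≃+* F) (A : Matrix (ZMod 3) (ZMod 3) F) (h : Aᵀ * A.map σ = 1) :
    GL (ZMod 3) F where
  val := A
  inv := (A.map σ)ᵀ
  val_inv := mul_eq_one_comm.1 (by rw [← transpose_transpose A, ← transpose_mul,
    transpose_transpose, h, transpose_one])
  inv_val := by rw [← transpose_transpose A, ← transpose_mul, transpose_transpose, h, transpose_one]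

variable [Fintype F] {σ : F ≃+* F} {ω : F} {p : ℕ}

omit [Fintype F] in
lemma fourier_apply (i j : ZMod 3) : fourier ω i j = (ω - ω ^ 2)⁻¹ * ph ω (i * j) := rfl

lemma P3_unitary (C : UCtx σ ω p) (v : V3) : (P3 ω v)ᵀ * (P3 ω v).map σ = 1 := by
  ext i j
  rw [mul_apply, Finset.sum_eq_single (i + v.1)]
  · rcases eq_or_ne i j with rfl | h
    · simp [P3, C.ph_conj, ← C.ph_add, ph_zero]
    · simp [P3, h]
  · intro k _ hk; simp [P3, hk]
  · simp

lemma fourier_unitary (C : UCtx σ ω p) : (fourier ω)ᵀ * (fourier ω).map σ = 1 := by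
  ext i j
  rw [mul_apply]
  have hσθ : σ (ω - ω ^ 2) = -(ω - ω ^ 2) := by rw [map_sub, C.conj_root, C.conj_root_sq]; ring
  have hterm : ∀ k : ZMod 3, (fourier ω)ᵀ i k * (fourier ω).map σ k j =
      (3 : F)⁻¹ * ph ω (k * (i - j)) := fun k => by
    rw [transpose_apply, map_apply, fourier_apply, fourier_apply, map_mul, map_inv₀, hσθ, C.ph_conj,
      mul_mul_mul_comm, ← C.ph_add, ← mul_inv,
      show (ω - ω ^ 2) * -(ω - ω ^ 2) = (3 : F) by
        linear_combination (-(ω ^ 2) + 3 * ω - 3) * C.sum_eq]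
    ring_nf
  simp only [hterm, ← Finset.mul_sum]
  rw [sum_three, Matrix.one_apply]
  rcases eq_or_ne i j with rfl | h
  · rw [if_pos rfl, sub_self, mul_zero, mul_zero, mul_zero, ph_zero,
      show (1 : F) + 1 + 1 = 3 by norm_num, inv_mul_cancel₀ C.three_ne]
  · rw [if_neg h]
    apply mul_eq_zero_of_right
    obtain hd | hd : i - j = 1 ∨ i - j = 2 := by
      have h0 : i - j ≠ 0 := sub_ne_zero.2 h
      revert h0; generalize i - j = d; revert d; decide
    · rw [hd]
      change ω ^ 0 + ω ^ 1 + ω ^ 2 = 0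
      linear_combination C.sum_eq
    · rw [hd]
      change ω ^ 0 + ω ^ 2 + ω ^ 1 = 0
      linear_combination C.sum_eq

lemma quad_unitary (C : UCtx σ ω p) : (quadDiag ω)ᵀ * (quadDiag ω).map σ = 1 := by
  rw [quadDiag, diagonal_transpose, diagonal_map (map_zero σ), diagonal_mul_diagonal,
    ← diagonal_one]
  congr 1
  funext j
  rw [C.ph_conj, ← C.ph_add, add_neg_cancel, ph_zero]

/-- The Pauli matrices as invertible matrices. -/
def gP (C : UCtx σ ω p) (v : V3) : GL (ZMod 3) F := mkUU σ _ (P3_unitary C v)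

/-- The Fourier matrix as an invertible matrix. -/
def gF (C : UCtx σ ω p) : GL (ZMod 3) F := mkUU σ _ (fourier_unitary C)

/-- The quadratic diagonal as an invertible matrix. -/
def gQ (C : UCtx σ ω p) : GL (ZMod 3) F := mkUU σ _ (quad_unitary C)

/-- The group generated by them. -/
def G25 (C : UCtx σ ω p) : Subgroup (GL (ZMod 3) F) :=
  Subgroup.closure (Set.range (gP C) ∪ {gF C, gQ C})

lemma gP_mem (C : UCtx σ ω p) (v : V3) : gP C v ∈ G25 C :=
  Subgroup.subset_closure (Or.inl ⟨v, rfl⟩)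

lemma gF_mem (C : UCtx σ ω p) : gF C ∈ G25 C :=
  Subgroup.subset_closure (Or.inr (Or.inl rfl))

lemma gQ_mem (C : UCtx σ ω p) : gQ C ∈ G25 C :=
  Subgroup.subset_closure (Or.inr (Or.inr rfl))

lemma G25_le_UU (C : UCtx σ ω p) : G25 C ≤ UU (ZMod 3) σ := by
  refine (Subgroup.closure_le _).2 ?_
  rintro g (⟨v, rfl⟩ | rfl | rfl)
  · exact (mem_UU_iff σ _).2 (P3_unitary C v)
  · exact (mem_UU_iff σ _).2 (fourier_unitary C)
  · exact (mem_UU_iff σ _).2 (quad_unitary C)

lemma G25_le_N3 (C : UCtx σ ω p) : G25 C ≤ N3 ω := by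
  classical
  have hfw : ∀ g ∈ G25 C, ∀ v : V3, ∃ (w : V3) (c : F),
      (g : Matrix (ZMod 3) (ZMod 3) F) * P3 ω v = c • (P3 ω w * g) := by
    intro g hg
    rw [G25, ← Subgroup.mem_toSubmonoid, Subgroup.closure_toSubmonoid_of_finite] at hg
    induction hg using Submonoid.closure_induction with
    | mem x hx =>
      rcases hx with ⟨u, rfl⟩ | rfl | rfl <;> intro v
      · refine ⟨v, ph ω (u.2 * v.1 - u.1 * v.2), ?_⟩
        ext i j
        change (P3 ω u * P3 ω v) i j = _ * (P3 ω v * P3 ω u) i j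
        rw [mul_apply, mul_apply, Finset.sum_eq_single (j + v.1), Finset.sum_eq_single (j + u.1)]
        · by_cases hi : i = j + v.1 + u.1
          · simp [P3, hi, show j + v.1 + u.1 = j + u.1 + v.1 from add_right_comm _ _ _, ← C.ph_add]
            congr 1
            ring
          · simp [P3, hi, show i ≠ j + u.1 + v.1 by rwa [add_right_comm]]
        · intro k _ hk; simp [P3, hk]
        · simp
        · intro k _ hk; simp [P3, hk]
        · simp
      · refine ⟨(-v.2, v.1), ph ω (-(v.1 * v.2)), ?_⟩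
        ext i j
        change (fourier ω * P3 ω v) i j = _ * (P3 ω _ * fourier ω) i j
        rw [mul_apply, mul_apply, Finset.sum_eq_single (j + v.1),
          Finset.sum_eq_single (i + v.2)]
        · simp [P3, fourier_apply]
          simp only [mul_assoc, ← C.ph_add, mul_left_comm (ph ω _) (ω - ω ^ 2)⁻¹]
          congr 2
          ring
        · intro k _ hk
          have : ¬ i = k + -v.2 := fun h => hk (by rw [h]; abel)
          simp [P3, this]
        · simp
        · intro k _ hk; simp [P3, hk]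
        · simp
      · refine ⟨(v.1, v.2 + 2 * v.1), ph ω (v.1 * v.1), ?_⟩
        ext i j
        change (quadDiag ω * P3 ω v) i j = _ * (P3 ω _ * quadDiag ω) i j
        rw [quadDiag, diagonal_mul, mul_diagonal]
        by_cases hi : i = j + v.1
        · simp [P3, hi, ← C.ph_add]
          congr 1
          ring
        · simp [P3, hi]
    | one => intro v; exact ⟨v, 1, by simp⟩
    | mul a b _ _ ha hb =>
      intro v
      obtain ⟨w, c, hw⟩ := hb v
      obtain ⟨z, d, hz⟩ := ha w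
      exact ⟨z, c * d, by rw [Units.val_mul, mul_assoc, hw, mul_smul_comm, ← mul_assoc, hz,
        smul_mul_assoc, smul_smul, mul_assoc]⟩
  exact fun g hg => ⟨hfw g hg, hfw _ (inv_mem hg)⟩

end CfsgLib.Geometric.SUNine
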