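import Cfsg.Agent.Lib.Geometric.SLNine.Blocks
import Cfsg.Agent.Lib.Geometric.SUNine.Gens

/-!
Membership of tensor, block, signed permutation and eigenspace elements in the unitary groups of
the standard forms in dimensions three and nine.
-/

set_option autoImplicit false

namespace CfsgLib.Geometric.SUNine

open Matrix CfsgLib.Geometric.SLNine
open scoped Kronecker

variable {F : Type*} [Field F]

lemma bd_transpose (a : ZMod 3 → Matrix (ZMod 3) (ZMod 3) F) : (bd a)ᵀ = bd fun i => (a i)ᵀ := by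
  ext ⟨i, k⟩ ⟨j, l⟩
  by_cases h : i = j
  · subst h; simp [bd_apply]
  · simp [bd_apply, h, Ne.symm h]

lemma bd_map (σ : F ≃+* F) (a : ZMod 3 → Matrix (ZMod 3) (ZMod 3) F) :
    (bd a).map σ = bd fun i => (a i).map σ := by
  ext ⟨i, k⟩ ⟨j, l⟩
  by_cases h : i = j <;> simp [bd_apply, h]

lemma kron_mem_UU {σ : F ≃+* F} {a b : GL (ZMod 3) F} (ha : a ∈ UU (ZMod 3) σ)
    (hb : b ∈ UU (ZMod 3) σ) : kronHom (a, b) ∈ UU J9 σ := by
  rw [mem_UU_iff] at ha hb ⊢
  rw [coe_kronHom]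
  have e : ((a : Matrix (ZMod 3) (ZMod 3) F) ⊗ₖ (b : Matrix (ZMod 3) (ZMod 3) F)).map σ =
      (a : Matrix (ZMod 3) (ZMod 3) F).map σ ⊗ₖ (b : Matrix (ZMod 3) (ZMod 3) F).map σ := by
    ext i j; simp
  rw [e, ← Matrix.kroneckerMap_transpose, ← Matrix.mul_kronecker_mul, ha, hb,
    Matrix.one_kronecker_one]

lemma pm_mem_UU (σ : F ≃+* F) (π : Equiv.Perm J9) : (pmHom π : GL J9 F) ∈ UU J9 σ := by
  rw [mem_UU_iff]
  ext i j
  rw [Matrix.mul_apply, Finset.sum_eq_single (π i)]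
  · show pmat π (π i) i * σ (pmat π (π i) j) = _
    rcases eq_or_ne i j with rfl | h
    · rcases Int.units_eq_one_or (Equiv.Perm.sign π) with hs | hs <;> simp [pmat, hs]
    · simp [pmat, h]
  · intro x _ hx
    show pmat π x i * _ = 0
    simp [pmat, hx]
  · simp

lemma bd_mem_UU {σ : F ≃+* F} {a : ZMod 3 → GL (ZMod 3) F} (ha : ∀ i, a i ∈ UU (ZMod 3) σ) :
    bdHom a ∈ UU J9 σ := by
  rw [mem_UU_iff, coe_bdHom, bd_transpose, bd_map, bd_mul, ← bd_one]
  congr 1
  funext i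
  exact (mem_UU_iff σ _).1 (ha i)

lemma blk_mem_UU {σ : F ≃+* F} {a : ZMod 3 → GL (ZMod 3) F} (h : bdHom a ∈ UU J9 σ) (i : ZMod 3) :
    a i ∈ UU (ZMod 3) σ := by
  rw [mem_UU_iff, coe_bdHom, bd_transpose, bd_map, bd_mul, ← bd_one] at h
  exact (mem_UU_iff σ _).2 (congrFun (SLNine.Blk.bd_injective h) i)

/-- An element commuting with the parity of the first factor is an isometry on the eigenspace. -/
lemma minus_mem_UU {σ : F ≃+* F} (h2 : (2 : F) ≠ 0) {g : GL J9 F} (hg : g ∈ UU J9 σ)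
    (hc : Commute g tA) {c : GL (ZMod 3) F}
    (he : (c : Matrix (ZMod 3) (ZMod 3) F) = cMinus (g : Matrix J9 J9 F)) :
    c ∈ UU (ZMod 3) σ := by
  classical
  set π : Equiv.Perm J9 := (Equiv.neg (ZMod 3)).prodCongr (Equiv.refl (ZMod 3)) with hπ
  set s : F := ((Equiv.Perm.sign π : ℤ) : F) with hs
  have hs0 : s ≠ 0 := by
    rcases Int.units_eq_one_or (Equiv.Perm.sign π) with h | h <;> simp [hs, h]
  have hsym : ∀ x y, (g : Matrix J9 J9 F) (π x) (π y) = (g : Matrix J9 J9 F) x y := by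
    intro x y
    have h := congrArg (fun u : GL J9 F => (u : Matrix J9 J9 F) (π x) y) hc.eq
    change ((g : Matrix J9 J9 F) * pmat (F := F) π : Matrix J9 J9 F) (π x) y =
      ((pmat (F := F) π : Matrix J9 J9 F) * (g : Matrix J9 J9 F) : Matrix J9 J9 F) (π x) y at h
    rw [Matrix.mul_apply, Matrix.mul_apply, Finset.sum_eq_single (π y) (fun z _ hz => by simp [pmat, hz])
      (by simp), Finset.sum_eq_single x (fun z _ hz => by simp [pmat, Ne.symm hz]) (by simp)] at h
    simp only [pmat, Matrix.of_apply, if_true, ← hs] at h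
    exact mul_right_cancel₀ hs0 (h.trans (mul_comm _ _))
  have hπ0 : ∀ k, π ((0 : ZMod 3), k) = (0, k) := fun k => by simp [hπ]
  have hπ1 : ∀ k, π ((1 : ZMod 3), k) = (2, k) := fun k => by simp [hπ, Prod.map]; rfl
  have hπ2 : ∀ k, π ((2 : ZMod 3), k) = (1, k) := fun k => by simp [hπ, Prod.map]; rfl
  set G := (g : Matrix J9 J9 F) with hG
  have horth : ∀ y y' : J9, ∑ x, G x y * σ (G x y') = if y = y' then 1 else 0 := by
    intro y y'
    have h := congrFun (congrFun ((mem_UU_iff σ g).1 hg) y) y'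
    rw [Matrix.mul_apply, Matrix.one_apply] at h
    simpa using h
  rw [mem_UU_iff, he]
  ext k l
  rw [Matrix.mul_apply, Matrix.one_apply]
  simp only [transpose_apply, map_apply, cMinus, of_apply]
  have e : ∑ x : J9, (G x (1, k) - G x (2, k)) * σ (G x (1, l) - G x (2, l)) =
      2 * if k = l then 1 else 0 := by
    simp only [map_sub, sub_mul, mul_sub, Finset.sum_sub_distrib, horth]
    simp [show (1 : ZMod 3) ≠ 2 by decide, show (2 : ZMod 3) ≠ 1 by decide]
    split_ifs <;> norm_num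
  refine mul_left_cancel₀ h2 (Eq.trans ?_ e)
  rw [Fintype.sum_prod_type]
  have h0 : ∀ m n, G ((0 : ZMod 3), m) (1, n) = G (0, m) (2, n) := fun m n => by
    have h := hsym ((0 : ZMod 3), m) (1, n)
    rw [hπ0, hπ1] at h
    exact h.symm
  have h21 : ∀ m n, G ((2 : ZMod 3), m) (1, n) = G (1, m) (2, n) := fun m n => by
    have h := hsym ((2 : ZMod 3), m) (1, n)
    rw [hπ2, hπ1] at h
    exact h.symm
  have h22 : ∀ m n, G ((2 : ZMod 3), m) (2, n) = G (1, m) (1, n) := fun m n => by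
    have h := hsym ((2 : ZMod 3), m) (2, n)
    rw [hπ2, hπ2] at h
    exact h.symm
  simp only [SLNine.sum_zmod, h0, h21, h22, map_sub]
  ring

end CfsgLib.Geometric.SUNine
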