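import Cfsg.Agent.Lib.Geometric.SUNine.CentresFive
import Cfsg.Agent.Lib.Geometric.SUThree.Basic

/-!
An overgroup in `GU₃(p)` of the generated group with a transvection contains `SU₃(p)`; for `p = 5`
an overgroup with a homology centred outside the twelve base points has a transvection.
-/

set_option autoImplicit false

namespace CfsgLib.Geometric.SUNine

open Matrix CfsgLib.Geometric CfsgLib.Geometric.SLNine

/-- `H` contains a non-identity element `x ↦ x + φ x • v`. -/
def HasTransvection {F : Type*} [Field F] (H : Subgroup (GL (ZMod 3) F)) : Prop :=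
  ∃ g ∈ H, g ≠ 1 ∧ ∃ (v : ZMod 3 → F) (φ : (ZMod 3 → F) →ₗ[F] F),
    φ v = 0 ∧ ∀ x, ap g x = x + φ x • v

variable {F : Type*} [Field F] [Fintype F] {σ : F ≃+* F} {ω : F} {p : ℕ}

lemma uForm_eq_hermForm (C : UCtx σ ω p) (u v : ZMod 3 → F) :
    uForm σ u v = Cfsg.hermForm 3 F p u v :=
  Finset.sum_congr rfl fun i _ => congrArg (u i * ·) (C.conj (v i))

lemma conj_fixed (C : UCtx σ ω p) {x : F} (hx : σ x = x) : ∃ n : ℕ, x = n := by
  have := C.charP
  have : Fact p.Prime := ⟨C.prime⟩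
  obtain ⟨a, rfl⟩ : x ∈ Set.range (ZMod.castHom (dvd_refl p) F) := by
    by_contra hn
    -- `X ^ p - X` has at most `p` roots
    classical
    set P : Polynomial F := Polynomial.X ^ p - Polynomial.X
    have hP0 : P ≠ 0 := FiniteField.X_pow_card_sub_X_ne_zero F C.prime.one_lt
    have hsub : insert x ((Finset.univ : Finset (ZMod p)).image (ZMod.castHom (dvd_refl p) F)) ⊆
        P.roots.toFinset := by
      intro y hy
      rw [Multiset.mem_toFinset, Polynomial.mem_roots hP0]
      rcases Finset.mem_insert.1 hy with rfl | hy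
      · simp [P, ← C.conj, hx]
      · obtain ⟨a, -, rfl⟩ := Finset.mem_image.1 hy
        simp only [P, Polynomial.IsRoot.def, Polynomial.eval_sub, Polynomial.eval_pow,
          Polynomial.eval_X, sub_eq_zero]
        rw [← map_pow, ZMod.pow_card]
    have h1 := (Finset.card_le_card hsub).trans ((Multiset.toFinset_card_le _).trans
      (Polynomial.card_roots' P))
    rw [Finset.card_insert_of_notMem (by
      simp only [Finset.mem_image, Finset.mem_univ, true_and]
      exact hn), Finset.card_image_of_injective _ (RingHom.injective _), Finset.card_univ,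
      ZMod.card, FiniteField.X_pow_card_sub_X_natDegree_eq F C.prime.one_lt] at h1
    omega
  exact ⟨a.val, by rw [← map_natCast (ZMod.castHom (dvd_refl p) F), ZMod.natCast_zmod_val]⟩

/-- With a transvection, the whole special unitary group. -/
theorem su_le_of_hasTransvection (C : UCtx σ ω p) (hp : 3 ≤ p) {H : Subgroup (GL (ZMod 3) F)}
    (hU : H ≤ UU (ZMod 3) σ) (hG : G25 C ≤ H) (hT : HasTransvection H) :
    UU (ZMod 3) σ ⊓ Cfsg.Geo.specialLinear (ZMod 3) F ≤ H := by
  classical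
  obtain ⟨τ, hτ, hh⟩ := isUnitaryForm_hermForm (F := F) 3 p C.card
  obtain ⟨ζ, hζ, hf'⟩ := exists_skewForm_of_unitary hh
  obtain rfl : σ = τ := RingEquiv.ext fun x => by rw [hτ, C.conj]
  let f : (ZMod 3 → F) → (ZMod 3 → F) → F := fun u v => ζ * Cfsg.hermForm 3 F p u v
  have hf : IsSkewForm σ f := hf'
  have hfu : ∀ u v, f u v = ζ * uForm σ u v := fun u v => by rw [uForm_eq_hermForm C]
  have hI : UU (ZMod 3) σ ≤ isom f := fun g hg u v => by
    change f (ap g u) (ap g v) = f u v
    rw [hfu, hfu]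
    exact congrArg (ζ * ·) (hg u v)
  obtain ⟨g, hgH, hg1, v, φ, hφv, hgv⟩ := hT
  have hv0 : v ≠ 0 := fun h => hg1 (gl_ext fun x => by rw [hgv, h, smul_zero, add_zero, ap_one])
  obtain ⟨x₀, hx₀⟩ : ∃ x, φ x ≠ 0 := by
    by_contra hc
    push Not at hc
    exact hg1 (gl_ext fun x => by rw [hgv, hc, zero_smul, add_zero, ap_one])
  have hid : ∀ x y, φ x * f v y + σ (φ y) * f x v + φ x * σ (φ y) * f v v = 0 := by
    intro x y
    have h : f (ap g x) (ap g y) = f x y := hI (hU hgH) x y
    rw [hgv, hgv, hf.add_left, Unitary.add_right hf, Unitary.add_right hf, hf.smul_left,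
      hf.smul_left, Unitary.smul_right hf, Unitary.smul_right hf] at h
    linear_combination h
  have hvv : f v v = 0 := by
    have := hid x₀ v
    rw [hφv, map_zero, zero_mul, add_zero, mul_zero, zero_mul, add_zero] at this
    exact (mul_eq_zero.1 this).resolve_left hx₀
  obtain ⟨⟨y₁, hy₁⟩, ⟨y₀, hy₀⟩⟩ := hf.nondegenerate v hv0
  set c : F := -σ (φ y₀) / f v y₀ with hc
  have hφ : ∀ x, φ x = c * f x v := by
    intro x
    have := hid x y₀
    rw [hvv, mul_zero, add_zero] at this
    rw [hc]; field_simp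
    linear_combination this
  have hσc : σ c = c := by
    have h := hid y₁ y₁
    rw [hvv, mul_zero, add_zero, hφ, map_mul] at h
    have hs : f v y₁ = -σ (f y₁ v) := hf.skew v y₁
    rw [hs] at h
    have h' : f y₁ v * σ (f y₁ v) * (σ c - c) = 0 := by linear_combination h
    exact sub_eq_zero.1 ((mul_eq_zero.1 h').resolve_left
      (mul_ne_zero hy₁ ((map_ne_zero_iff _ σ.injective).2 hy₁)))
  have hc0 : c ≠ 0 := fun h => hx₀ (by rw [hφ, h, zero_mul])
  have hpow : ∀ (k : ℕ) (x : ZMod 3 → F), ap (g ^ k) x = x + ((k : F) * φ x) • v := by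
    intro k
    induction k with
    | zero => intro x; simp
    | succ k ih =>
      intro x
      rw [pow_succ, ap_mul, ih, hgv, map_add, map_smul, hφv, smul_zero, add_zero, add_assoc,
        ← add_smul]
      push_cast; ring_nf
  have hX : Unitary.InX hf H v := by
    refine ⟨hvv, fun hv d hd => ?_⟩
    obtain ⟨n, hn⟩ := conj_fixed C (show σ (d / c) = d / c by rw [map_div₀, hd, hσc])
    have he : g ^ n = Unitary.T hf v d hv := gl_ext fun x => by
      refine (hpow n x).trans ?_
      rw [Unitary.ap_T hf, hφ, ← mul_assoc, ← hn, div_mul_cancel₀ _ hc0]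
    exact he ▸ pow_mem hgH n
  -- the orbit of the centre spans
  set W := Submodule.span F {x | ∃ h ∈ G25 C, ap h v = x} with hW
  have hWinv : ∀ h ∈ G25 C, ∀ x ∈ W, ap h x ∈ W := by
    intro h hh x hx
    induction hx using Submodule.span_induction with
    | mem y hy =>
      obtain ⟨k, hk, rfl⟩ := hy
      exact Submodule.subset_span ⟨h * k, mul_mem hh hk, ap_mul h k v⟩
    | zero => rw [ap_zero]; exact W.zero_mem
    | add y z _ _ e1 e2 => rw [ap_add]; exact W.add_mem e1 e2
    | smul a y _ e1 => rw [ap_smul]; exact W.smul_mem a e1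
  have hvW : v ∈ W := Submodule.subset_span ⟨1, one_mem _, ap_one v⟩
  have hWtop : W = ⊤ := by
    obtain ⟨i, hi⟩ : ∃ i, v i ≠ 0 := Function.ne_iff.1 hv0
    have hei : Pi.single i (1 : F) ∈ W := by
      have hm : ap (gP C (0, 0)) v + ph ω (-i) • ap (gP C (0, 1)) v +
          ph ω (i) • ap (gP C (0, 2)) v ∈ W :=
        W.add_mem (W.add_mem (hWinv _ (gP_mem C _) _ hvW) (W.smul_mem _ (hWinv _ (gP_mem C _) _ hvW)))
          (W.smul_mem _ (hWinv _ (gP_mem C _) _ hvW))
      have he : ap (gP C (0, 0)) v + ph ω (-i) • ap (gP C (0, 1)) v +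
          ph ω (i) • ap (gP C (0, 2)) v = (3 * v i) • Pi.single i (1 : F) := by
        funext j
        simp only [Pi.add_apply, Pi.smul_apply, smul_eq_mul, ap_gP, sub_zero, zero_mul, one_mul,
          ph_zero, ← mul_assoc, ← C.ph_add]
        rcases eq_or_ne j i with rfl | hj
        · rw [Pi.single_eq_same, neg_add_cancel, show j + 2 * j = 0 by clear * - j; revert j; decide,
            ph_zero]
          ring
        · rw [Pi.single_eq_of_ne hj, mul_zero]
          obtain ⟨e1, e2⟩ | ⟨e1, e2⟩ : (-i + j = 1 ∧ i + 2 * j = 2) ∨ (-i + j = 2 ∧ i + 2 * j = 1) := by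
            clear * - hj; revert hj; revert i j; decide
          all_goals
            rw [e1, e2]
          · change v j + ω ^ 1 * v j + ω ^ 2 * v j = 0
            linear_combination v j * C.sum_eq
          · change v j + ω ^ 2 * v j + ω ^ 1 * v j = 0
            linear_combination v j * C.sum_eq
      rw [he] at hm
      have := W.smul_mem (3 * v i)⁻¹ hm
      rwa [smul_smul, inv_mul_cancel₀ (mul_ne_zero C.three_ne hi), one_smul] at this
    rw [eq_top_iff, ← (Pi.basisFun F (ZMod 3)).span_eq, Submodule.span_le]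
    rintro _ ⟨j, rfl⟩
    have := hWinv _ (gP_mem C (j - i, 0)) _ hei
    suffices h : ap (gP C (j - i, 0)) (Pi.single i 1) = Pi.basisFun F (ZMod 3) j by
      rw [SetLike.mem_coe, ← h]; exact this
    funext k
    rw [Pi.basisFun_apply, ap_gP, zero_mul, ph_zero, one_mul]
    rcases eq_or_ne k j with rfl | hk
    · simp
    · rw [Pi.single_eq_of_ne hk, Pi.single_eq_of_ne]
      intro h
      exact hk (by linear_combination h)
  obtain ⟨w, ⟨k, hk, rfl⟩, hw⟩ : ∃ w, (∃ h ∈ G25 C, ap h v = w) ∧ f v w ≠ 0 := by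
    by_contra hc'
    push Not at hc'
    apply hy₀
    have hy : y₀ ∈ W := hWtop ▸ Submodule.mem_top
    clear hy₀ hc hφ hσc hc0 c
    induction hy using Submodule.span_induction with
    | mem y hy => exact hc' y hy
    | zero => exact Unitary.zero_right hf v
    | add y z _ _ e1 e2 => rw [Unitary.add_right hf, e1, e2, add_zero]
    | smul a y _ e1 => rw [Unitary.smul_right hf, e1, mul_zero]
  obtain ⟨u, ⟨k', hk', rfl⟩, hu⟩ : ∃ u, (∃ h ∈ G25 C, ap h v = u) ∧
      u ∉ Submodule.span F ({v, ap k v} : Set (ZMod 3 → F)) := by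
    by_contra hc'
    push Not at hc'
    have hle : W ≤ Submodule.span F ({v, ap k v} : Set (ZMod 3 → F)) :=
      Submodule.span_le.2 fun x hx => hc' x hx
    rw [hWtop, top_le_iff] at hle
    have h2 : Module.finrank F (Submodule.span F ({v, ap k v} : Set (ZMod 3 → F))) ≤ 2 := by
      have := finrank_span_le_card (R := F) ({v, ap k v} : Set (ZMod 3 → F))
      refine this.trans ?_
      simp only [Set.toFinset_insert, Set.toFinset_singleton]
      exact (Finset.card_insert_le _ _).trans (by simp)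
    rw [hle, finrank_top, Module.finrank_fintype_fun_eq_card] at h2
    simp at h2
  have hall : Unitary.HasT hf H :=
    SUThree.hasT_of_three hf hX (Unitary.inX_ap hf (hG hk) (hI (G25_le_UU C hk)) hX)
      (Unitary.inX_ap hf (hG hk') (hI (G25_le_UU C hk')) hX) hw hu
  rintro x ⟨hx1, hx2⟩
  exact SUThree.le_of_hasT C.card hp hζ hf hall ⟨hI hx1, hx2⟩

/-- In characteristic five a homology centred outside the base points gives a transvection. -/
theorem hasTransvection_of_inC (C : UCtx σ ω 5) {H : Subgroup (GL (ZMod 3) F)}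
    (hU : H ≤ UU (ZMod 3) σ) (hG : G25 C ≤ H) {c : ZMod 3 → F} (hc : uForm σ c c ≠ 0)
    (hH : InC H σ ω c) (hnb : ¬ IsBase c) : HasTransvection H := by
  classical
  have := C.charP
  have h5 : (5 : F) = 0 := by exact_mod_cast CharP.cast_eq_zero F 5
  obtain ⟨k, hk, hcos⟩ := exists_cos_three C hc hnb
  obtain ⟨z, hz⟩ : ∃ z, z = ap k c := ⟨_, rfl⟩
  have hzH : InC H σ ω z := hz ▸ inC_ap hU (hG hk) hH
  have hzz : uForm σ z z = uForm σ c c := hz ▸ G25_le_UU C hk c c
  rw [← hz, ← hzz] at hcos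
  rw [← hzz] at hc
  have hz0 : z 0 ≠ 0 := fun h => mul_ne_zero C.three_ne hc (by rw [← hcos, h, zero_mul])
  -- scale the centre
  set θ := ω - ω ^ 2 with hθ
  have hσθ : σ θ = ω ^ 2 - ω := by rw [hθ, map_sub, C.conj_root, C.conj_root_sq]
  obtain ⟨d, hd⟩ : ∃ d, d = (θ / z 0) • z := ⟨_, rfl⟩
  have hd0 : d 0 = θ := by rw [hd, Pi.smul_apply, smul_eq_mul, div_mul_cancel₀ _ hz0]
  have hdd : uForm σ d d = 1 := by
    have hs : σ (z 0) ≠ 0 := (map_ne_zero_iff _ σ.injective).2 hz0
    rw [hd, uForm_smul, map_div₀, hσθ]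
    field_simp
    have h3 : θ * (ω ^ 2 - ω) = 3 := by
      rw [hθ]; linear_combination (-(ω ^ 2) + 3 * ω - 3) * C.sum_eq
    refine mul_left_cancel₀ C.three_ne ?_
    linear_combination (3 * uForm σ z z) * h3 - 3 * hcos
  obtain ⟨g, hg, a, hga⟩ := hzH
  rw [← homMat_smul (div_ne_zero C.theta_ne hz0) z, ← hθ, ← hd] at hga
  have ha : a ≠ 0 := by rintro rfl; exact g.ne_zero (by rw [hga, zero_smul])
  -- the product with the inverse homology at the first base point
  set β : F := ω ^ 2 - 1 with hβ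
  obtain ⟨kap, hkap⟩ : ∃ x : F, x = 2 * ω + 4 := ⟨_, rfl⟩
  let T : (ZMod 3 → F) → F := fun x => x 1 * σ (d 1) + x 2 * σ (d 2)
  have hN : d 1 * σ (d 1) + d 2 * σ (d 2) = -2 := by
    have h := hdd
    rw [uForm, sum_three, hd0, hσθ, hθ] at h
    linear_combination h - (-(ω ^ 2) + 3 * ω - 3) * C.sum_eq
  have hinvQ : ∀ x : ZMod 3 → F, ∀ i, ap (gQ C)⁻¹ x i = ph ω (-(i * i)) * x i := by
    intro x i
    have h := congrFun (ap_ap_inv (gQ C) x) i
    rw [ap_gQ] at h
    rw [← h, ← mul_assoc, ← C.ph_add, neg_add_cancel, ph_zero, one_mul]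
  obtain ⟨κ, hκdef⟩ : ∃ x : GL (ZMod 3) F, x = g * (gQ C)⁻¹ := ⟨_, rfl⟩
  have hκ : κ ∈ H := hκdef ▸ mul_mem hg (inv_mem (hG (gQ_mem C)))
  -- `κ` is a multiple of `k₁`
  let s : (ZMod 3 → F) → F := fun x => x 0 * (ω * σ θ) + T x
  let k₁ : (ZMod 3 → F) → ZMod 3 → F := fun x i =>
    (if i = 0 then ω * x 0 else x i) + β * s x * d i
  have hk₁ : ∀ x, ap κ x = (a / ω) • k₁ x := by
    intro x
    have hω := C.ne_zero
    rw [hκdef, ap_mul, ap, hga, smul_mulVec, homMat_mulVec, hdd, div_one]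
    have hb : ∀ i, ap (gQ C)⁻¹ x i = (if i = 0 then ω * x 0 else x i) / ω := by
      intro i
      rw [hinvQ]
      obtain rfl | rfl | rfl : i = 0 ∨ i = 1 ∨ i = 2 := by clear * - i; revert i; decide
      · simp [ph_zero]; field_simp
      · change ω ^ 2 * x 1 = _
        rw [if_neg (by decide), eq_div_iff hω]
        linear_combination x 1 * C.pow_three
      · change ω ^ 2 * x 2 = _
        rw [if_neg (by decide), eq_div_iff hω]
        linear_combination x 2 * C.pow_three
    have hsum : uForm σ (ap (gQ C)⁻¹ x) d = s x / ω := by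
      rw [uForm, sum_three, hb, hb, hb, hd0]
      simp +decide [s, T]
      field_simp
      ring
    rw [hsum]
    funext i
    simp only [Pi.smul_apply, Pi.add_apply, smul_eq_mul, k₁, hb, hβ]
    field_simp
  let φ : (ZMod 3 → F) →ₗ[F] F :=
    { toFun := fun x => β * (s x + s (k₁ x))
      map_add' := fun x y => by simp +decide [s, T, k₁]; ring
      map_smul' := fun t x => by simp +decide [s, T, k₁]; ring }
  let w : ZMod 3 → F := fun i => if i = 0 then kap else d i
  have hsk : ∀ x, s (k₁ x) =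
      (ω * x 0 + β * s x * θ) * (ω * σ θ) + (T x + β * s x * (-2)) := fun x => by
    have h := hN
    simp +decide [s, T, k₁, hd0]
    linear_combination (β * (x 0 * (ω * σ θ) + (x 1 * σ (d 1) + x 2 * σ (d 2)))) * h
  have hsq : ∀ x, k₁ (k₁ x) = x + φ x • w := by
    intro x
    funext i
    change (if i = 0 then ω * k₁ x 0 else k₁ x i) + β * s (k₁ x) * d i =
      x i + β * (s x + s (k₁ x)) * w i
    by_cases hi : i = 0
    · subst hi
      rw [hsk]
      simp only [w, k₁, if_pos, hd0]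
      simp only [s]
      rw [hσθ, hθ, hβ, hkap]
      set u := x 0
      set t := T x
      linear_combination
        (u * (-71 - 9 * ω + 69 * ω ^ 2 - 56 * ω ^ 3 + 13 * ω ^ 4 + 29 * ω ^ 5 - 43 * ω ^ 6 +
            16 * ω ^ 7 + 7 * ω ^ 8 - 7 * ω ^ 9 + 4 * ω ^ 10 - 3 * ω ^ 11 + ω ^ 12) +
          t * (-44 + 19 * ω + 3 * ω ^ 2 - 24 * ω ^ 3 + 18 * ω ^ 4 + 2 * ω ^ 5 - 5 * ω ^ 6 +
            2 * ω ^ 7 - 2 * ω ^ 8 + ω ^ 9)) * C.sum_eq +
        (u * (14 + 16 * ω) + t * (12 + 6 * ω)) * h5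
    · simp only [w, k₁, if_neg hi]
      ring
  have hfin : ∀ x, ap (κ ^ 2) x = (a / ω) ^ 2 • (x + φ x • w) := by
    intro x
    have hlin : ∀ t : F, k₁ (t • x) = t • k₁ x := fun t => by
      funext i
      simp +decide [k₁, s, T]
      split <;> ring
    rw [pow_two κ, ap_mul, hk₁ x, ap_smul, hk₁, hsq, smul_smul, ← pow_two]
  have hφw : φ w = 0 := by
    change β * (s w + s (k₁ w)) = 0
    rw [hsk]
    have hTw : T w = -2 := by simp +decide [T, w]; linear_combination hN
    have hsw : s w = kap * (ω * σ θ) + (-2) := by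
      change w 0 * (ω * σ θ) + T w = _
      rw [hTw]; rfl
    rw [hsw, hTw, show w 0 = kap from rfl, hσθ, hθ, hβ, hkap]
    linear_combination (18 + 62 * ω - 80 * ω ^ 2 + 18 * ω ^ 3 + 34 * ω ^ 4 - 46 * ω ^ 5 +
      30 * ω ^ 6 + 10 * ω ^ 7 - 26 * ω ^ 8 + 8 * ω ^ 9 + 4 * ω ^ 10 - 2 * ω ^ 11) * C.sum_eq +
      (-2 - 16 * ω) * h5
  -- kill the scalar
  set r := (a / ω) ^ 2 with hr
  have hr0 : r ≠ 0 := pow_ne_zero 2 (div_ne_zero ha C.ne_zero)
  have hit : ∀ (m : ℕ) (x : ZMod 3 → F), ap ((κ ^ 2) ^ m) x = r ^ m • (x + ((m : F) * φ x) • w) := by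
    intro m
    induction m with
    | zero => intro x; simp
    | succ m ih =>
      intro x
      rw [pow_succ, ap_mul, hfin, ap_smul, ih, map_add, map_smul, hφw, smul_zero, add_zero,
        smul_smul, ← pow_succ', add_assoc, ← add_smul]
      push_cast; ring_nf
  have hr24 : r ^ 96 = 1 := by
    have hq := FiniteField.pow_card_sub_one_eq_one r hr0
    rw [C.card] at hq
    rw [show (96 : ℕ) = (5 ^ 2 - 1) * 4 by norm_num, pow_mul, hq, one_pow]
  have hmain : ∀ x, ap ((κ ^ 2) ^ 96) x = x + φ x • w := fun x => by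
    rw [hit, hr24, one_smul,
      show ((96 : ℕ) : F) = 1 by push_cast; linear_combination (19 : F) * h5, one_mul]
  refine ⟨(κ ^ 2) ^ 96, pow_mem (pow_mem hκ 2) 96, fun h1 => ?_, w, φ, hφw, hmain⟩
  have h := hmain (Pi.single 0 1)
  rw [h1, ap_one] at h
  have hφ0 : φ (Pi.single 0 1) = -(ω ^ 2) := by
    change β * (s (Pi.single 0 1) + s (k₁ (Pi.single 0 1))) = _
    rw [hsk]
    simp +decide [s, T]
    rw [hσθ, hθ, hβ]
    linear_combination (25 - 21 * ω ^ 2 + 19 * ω ^ 3 - 4 * ω ^ 4 - 10 * ω ^ 5 + 14 * ω ^ 6 -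
      5 * ω ^ 7 - 4 * ω ^ 8 + 4 * ω ^ 9 - ω ^ 10) * C.sum_eq + (-5 - 5 * ω) * h5
  have h0 := congrFun (add_eq_left.1 h.symm) 0
  rw [hφ0, Pi.smul_apply, show w 0 = kap from rfl, smul_eq_mul, Pi.zero_apply, hkap] at h0
  refine mul_ne_zero (neg_ne_zero.2 (pow_ne_zero 2 C.ne_zero)) ?_ h0
  intro hk0
  -- `2ω + 4 = 0` would make `ω` rational
  have hrat : ω = 3 := by linear_combination (3 : F) * hk0 + (-ω - 3) * h5
  have := C.sum_eq
  rw [hrat] at this
  have h3 : (13 : F) = 0 := by linear_combination this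
  exact C.three_ne (by linear_combination h3 - (2 : F) * h5)

end CfsgLib.Geometric.SUNine
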