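import Cfsg.Agent.Lib.Geometric.SLNine.Three
import Cfsg.Agent.Lib.Geometric.SUNine.Transvection
import Cfsg.Agent.Lib.ClassicalForms.Unitary.Simple

/-!
A non-scalar subgroup of `GU₃(p)` normalised by `SU₃(p)` contains it.
-/

set_option autoImplicit false

namespace CfsgLib.Geometric.SUNine

open Matrix CfsgLib.Geometric CfsgLib.Geometric.SLNine CfsgLib.ClassicalForms
open scoped commutatorElement

variable {F : Type*} [Field F] [Fintype F] {σ : F ≃+* F} {ω : F} {p : ℕ}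

lemma P3gl_mem_su (C : UCtx σ ω p) (v : V3) :
    P3gl C.pow_three v ∈ UU (ZMod 3) σ ⊓ Cfsg.Geo.specialLinear (ZMod 3) F :=
  ⟨(mem_UU_iff σ _).2 (P3_unitary C v), SLNine.mem_specialLinear.mpr (det_P3 C.root v)⟩

lemma fourierGL_mem_su (C : UCtx σ ω p) :
    fourierGL C.root ∈ UU (ZMod 3) σ ⊓ Cfsg.Geo.specialLinear (ZMod 3) F :=
  ⟨(mem_UU_iff σ _).2 (fourier_unitary C), SLNine.mem_specialLinear.mpr (det_fourier C.root)⟩

/-- An element commuting with the special unitary group modulo scalars is scalar. -/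
lemma mem_scalars_of_conj (C : UCtx σ ω p) {k : GL (ZMod 3) F}
    (h : ∀ s ∈ UU (ZMod 3) σ ⊓ Cfsg.Geo.specialLinear (ZMod 3) F, ∃ c : F,
      (k : Matrix (ZMod 3) (ZMod 3) F) * (s : Matrix (ZMod 3) (ZMod 3) F) =
        c • ((s : Matrix (ZMod 3) (ZMod 3) F) * (k : Matrix (ZMod 3) (ZMod 3) F))) :
    k ∈ Cfsg.Geo.scalars (ZMod 3) F := by
  have hω := C.root
  have hP := fun v => h _ (P3gl_mem_su C v)
  have hk : k ∈ N3 ω := (mem_N3_iff hω).2 fun v => ⟨v, hP v⟩
  have hact : ∀ v, act (P3 ω) k v = v := fun v => act3_eq hω hk (hP v).choose_spec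
  obtain ⟨a, u, ha, hau⟩ := eq_P3_of_act_id hω hk hact
  obtain ⟨c, hc⟩ := h _ (fourierGL_mem_su C)
  rw [hau, coe_fourierGL, smul_mul_assoc, mul_smul_comm, smul_comm] at hc
  have hc' : P3 ω u * fourier ω = c • (fourier ω * P3 ω u) := smul_right_injective _ ha hc
  have hc0 : c ≠ 0 := by
    rintro rfl
    rw [zero_smul] at hc'
    exact ((P3gl hω.pow_eq_one u).isUnit.mul (fourierGL hω).isUnit).ne_zero hc'
  have hfix : act (P3 ω) (fourierGL hω) u = u := by
    refine act3_eq hω (fourierGL_mem_N3 hω) (c := c⁻¹) ?_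
    rw [coe_fourierGL, hc', smul_smul, inv_mul_cancel₀ hc0, one_smul]
  rw [act_fourier hω] at hfix
  have hu : u = 0 := by
    clear * - hfix; revert u; decide
  refine ⟨Units.mk0 a ha, Units.ext ?_⟩
  subst hu
  rw [P3_zero] at hau
  rw [hau]
  ext i j
  simp [Matrix.scalar_apply, Matrix.one_apply, Matrix.diagonal_apply]

/-- The normal subgroup lemma. -/
theorem normal_le (C : UCtx σ ω p) (hp : 3 ≤ p) (K : Subgroup (GL (ZMod 3) F))
    (hKU : K ≤ UU (ZMod 3) σ)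
    (hK : ∀ h ∈ UU (ZMod 3) σ ⊓ Cfsg.Geo.specialLinear (ZMod 3) F, ∀ k ∈ K, h * k * h⁻¹ ∈ K)
    (hns : ∃ k ∈ K, k ∉ Cfsg.Geo.scalars (ZMod 3) F) :
    UU (ZMod 3) σ ⊓ Cfsg.Geo.specialLinear (ZMod 3) F ≤ K := by
  classical
  obtain ⟨τ, hτ, hh⟩ := isUnitaryForm_hermForm (F := F) 3 p C.card
  obtain ⟨ζ, hζ, hf'⟩ := exists_skewForm_of_unitary hh
  obtain rfl : σ = τ := RingEquiv.ext fun x => by rw [hτ, C.conj]
  set f : (Fin 3 → F) → (Fin 3 → F) → F := fun u v => ζ * Cfsg.hermForm 3 F p u v with hfdef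
  have hf : IsSkewForm σ f := hf'
  have hS : ∀ g : GL (ZMod 3) F,
      g ∈ isomSL (ZMod 3) (f : (ZMod 3 → F) → (ZMod 3 → F) → F) ↔
        g ∈ UU (ZMod 3) σ ⊓ Cfsg.Geo.specialLinear (ZMod 3) F := by
    intro g
    refine and_congr_left fun _ => ⟨fun hg u v => mul_left_cancel₀ hζ ?_, fun hg u v => ?_⟩
    · have := hg u v
      change ζ * Cfsg.hermForm 3 F p _ _ = ζ * Cfsg.hermForm 3 F p _ _ at this
      rwa [← uForm_eq_hermForm C, ← uForm_eq_hermForm C] at this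
    · change ζ * Cfsg.hermForm 3 F p _ _ = ζ * Cfsg.hermForm 3 F p _ _
      rw [← uForm_eq_hermForm C, ← uForm_eq_hermForm C]
      exact congrArg (ζ * ·) (hg u v)
  let S : Subgroup (GL (Fin 3) F) := isomSL (Fin 3) f
  let K' : Subgroup (GL (Fin 3) F) := K
  have hN : (K'.comap S.subtype).Normal :=
    ⟨fun n hn g => hK _ ((hS _).1 g.2) _ hn⟩
  have hgen : ∀ M : Subgroup (GL (Fin 3) F), Unitary.HasT hf M → isomSL (Fin 3) f ≤ M :=
    fun M hM x hx => CfsgLib.ClassicalForms.su_le_of_hasT C.card le_rfl (by omega) hζ hf hM hx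
  rcases normal_le_center_or_commutator_le hf (by simp) hgen _ hN with hc | hc
  · exfalso
    obtain ⟨k, hk, hks⟩ := hns
    refine hks (mem_scalars_of_conj C fun s hs => ?_)
    set d := k * s * k⁻¹ * s⁻¹ with hd
    have hdS : d ∈ UU (ZMod 3) σ ⊓ Cfsg.Geo.specialLinear (ZMod 3) F := by
      refine ⟨(UU (ZMod 3) σ).mul_mem ((UU (ZMod 3) σ).mul_mem ((UU (ZMod 3) σ).mul_mem (hKU hk) hs.1)
        ((UU (ZMod 3) σ).inv_mem (hKU hk))) ((UU (ZMod 3) σ).inv_mem hs.1), ?_⟩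
      refine MonoidHom.mem_ker.2 ?_
      rw [hd, map_mul, map_mul, map_mul, map_inv, map_inv, mul_inv_cancel_comm, mul_inv_cancel]
    have hdK : d ∈ K := by
      rw [show d = k * (s * k⁻¹ * s⁻¹) by rw [hd]; group]
      exact K.mul_mem hk (hK s hs _ (K.inv_mem hk))
    have hcen := Subgroup.mem_center_iff.1
      (hc (x := (⟨d, (hS d).2 hdS⟩ : S)) (show d ∈ K from hdK))
    obtain ⟨a, ha⟩ : ∃ a : F, (d : Matrix (ZMod 3) (ZMod 3) F) = a • 1 := by
      refine ⟨_, eq_smul_one_of_commute_P3 C.root ?_ ?_⟩ <;>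
      · exact congrArg Units.val
          (congrArg Subtype.val (hcen ⟨P3gl C.pow_three _, (hS _).2 (P3gl_mem_su C _)⟩).symm)
    refine ⟨a, ?_⟩
    have e : k * s = d * (s * k) := by rw [hd]; group
    have := congrArg (fun x : GL (ZMod 3) F => (x : Matrix (ZMod 3) (ZMod 3) F)) e
    simp only [Units.val_mul] at this
    rw [this, ha, smul_mul_assoc, one_mul]
  · intro x hx
    have hperf : commutator S = ⊤ := by
      have e := commutator_su_eq_top (F := F) C.card le_rfl (by omega : ¬ ((3 : ℕ) = 3 ∧ p = 2))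
      let E : Cfsg.SU 3 F p ≃* S := suEquivIsomSL (q := p) (n := 3) hζ
      refine eq_top_iff.2 fun x _ => ?_
      have hm : E (E.symm x) ∈ (commutator (Cfsg.SU 3 F p)).map E.toMonoidHom :=
        Subgroup.mem_map_of_mem _ (by rw [e]; exact Subgroup.mem_top _)
      rw [MulEquiv.apply_symm_apply, commutator_def, Subgroup.map_commutator] at hm
      exact Subgroup.commutator_mono le_top le_top hm
    rw [hperf] at hc
    exact hc (Subgroup.mem_top (⟨x, (hS x).2 hx⟩ : S))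

end CfsgLib.Geometric.SUNine
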