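import Cfsg.Agent.Lib.Geometric.SUNine.Transvection
import Cfsg.Agent.Lib.Geometric.SLNine.AmbSL

/-!
The dichotomy in `GU₃(p)`: an overgroup of the generated group normalises the Pauli group or
contains `SU₃(p)`.
-/

set_option autoImplicit false

namespace CfsgLib.Geometric.SUNine

open Matrix CfsgLib.Geometric CfsgLib.Geometric.SLNine

variable {F : Type*} [Field F] [Fintype F] {σ : F ≃+* F} {ω : F} {p : ℕ}

omit [Fintype F] in
lemma isBase_smul {a : F} (ha : a ≠ 0) {c : ZMod 3 → F} (h : IsBase c) : IsBase (a • c) := by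
  refine ⟨smul_ne_zero ha h.1, ?_⟩
  rcases h.2 with ⟨i, hi⟩ | hall
  · exact Or.inl ⟨i, fun j hj => by rw [Pi.smul_apply, hi j hj, smul_zero]⟩
  · exact Or.inr fun i => by simp only [Pi.smul_apply, smul_eq_mul, mul_pow, hall i]

lemma two_ne (C : UCtx σ ω p) (hp : 5 ≤ p) : (2 : F) ≠ 0 := by
  intro h
  have := C.charP
  have h' : p ∣ 2 := (CharP.cast_eq_zero_iff F p 2).1 (by exact_mod_cast h)
  have := Nat.le_of_dvd two_pos h'
  omega

lemma five_ne (C : UCtx σ ω p) (hp : p ≠ 5) : (5 : F) ≠ 0 := by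
  intro h
  have := C.charP
  have h' : p ∣ 5 := (CharP.cast_eq_zero_iff F p 5).1 (by exact_mod_cast h)
  exact hp ((Nat.prime_dvd_prime_iff_eq C.prime Nat.prime_five).1 h')

/-- Outside characteristic five, the special part normalises when there is no transvection. -/
lemma special_le_N3 (C : UCtx σ ω p) (hp : 5 ≤ p) (h5 : p ≠ 5)
    (std : ∀ (o : SLThree.Omega F) (H : Subgroup (GL (Fin 3) F)), SLThree.C6Hyp o H →
      H ≤ Cfsg.Geo.subgroupNormalizer o.R)
    {H : Subgroup (GL (ZMod 3) F)} (hG : G25 C ≤ H) (hT : ¬ HasTransvection H) :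
    H ⊓ Cfsg.Geo.specialLinear (ZMod 3) F ≤ N3 ω := by
  classical
  have hω := C.root
  have h2 := two_ne C hp
  have h3 := hω.pow_eq_one
  set o := AmbSLAux.om hω h2
  set H1 : Subgroup (GL (Fin 3) F) :=
    (H ⊓ Cfsg.Geo.specialLinear (ZMod 3) F : Subgroup (GL (ZMod 3) F))
  have hP : ∀ v, P3gl h3 v ∈ H := fun v => by
    rw [show P3gl h3 v = gP C v from Units.ext rfl]; exact hG (gP_mem C v)
  have hf : fourierGL hω ∈ H := by
    rw [show fourierGL hω = gF C from Units.ext rfl]; exact hG (gF_mem C)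
  have hq : quadGL hω ∈ H := by
    rw [show quadGL hω = gQ C from Units.ext rfl]; exact hG (gQ_mem C)
  have hPS : ∀ v : V3, P3gl h3 v ∈ H ⊓ Cfsg.Geo.specialLinear (ZMod 3) F := fun v =>
    ⟨hP v, mem_specialLinear.mpr (det_P3 hω v)⟩
  have hfS : fourierGL hω ∈ H ⊓ Cfsg.Geo.specialLinear (ZMod 3) F :=
    ⟨hf, mem_specialLinear.mpr (det_fourier hω)⟩
  have hnt : SLThree.NoTv H1 := by
    intro v φ hv hmem
    by_contra hc
    push Not at hc
    refine hT ⟨tv v φ hv, hmem.1, fun h1 => ?_, v, φ, hv, fun x => ?_⟩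
    · obtain ⟨x, hx⟩ : ∃ x, φ x ≠ 0 := by
        by_contra hx
        push Not at hx
        exact hc.2 (LinearMap.ext hx)
      have h := (congrArg (fun g : GL (Fin 3) F => ap g x) h1.symm).trans (ap_tv v φ hv x)
      have h' : x = x + φ x • v := (ap_one x).symm.trans h
      have this : φ x = 0 ∨ v = 0 := smul_eq_zero.1 (add_eq_left.1 h'.symm)
      exact this.elim hx hc.1
    · exact ap_tv v φ hv x
  have hW1 : o.W1 ∈ H1 :=
    ⟨AmbSLAux.W1_mem hω h2 (H := H) hf hq, SLThree.Omega.mk1_mem _ _⟩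
  have hW2 : o.W2 ∈ H1 :=
    ⟨AmbSLAux.W2_mem hω h2 (H := H) hf hq, SLThree.Omega.mk1_mem _ _⟩
  have hD : o.D ∈ H1 := by rw [AmbSLAux.D_eq]; exact hPS _
  have hP1 : o.P ∈ H1 := by rw [AmbSLAux.P_eq]; exact hPS _
  have h0 : o.W0 ∈ H1 := by rw [AmbSLAux.W0_eq]; exact hfS
  have hN : H1 ≤ Cfsg.Geo.subgroupNormalizer o.R :=
    std o H1 ⟨inf_le_right, hnt, five_ne C h5, hD, hP1, h0, hW1, hW2⟩
  intro x hx
  refine (mem_N3_iff hω).mpr fun u => ?_
  have hR : P3gl h3 u ∈ o.R := by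
    have hP0 : P3gl h3 ((1, 0) : V3) ∈ o.R := by rw [← AmbSLAux.P_eq hω h2]; exact o.P_mem
    have hD0 : P3gl h3 ((0, 1) : V3) ∈ o.R := by rw [← AmbSLAux.D_eq hω h2]; exact o.D_mem
    have hp' : ∀ t : ZMod 3, P3gl h3 (t, (0 : ZMod 3)) = P3gl h3 (1, 0) ^ t.val ∧
        P3gl h3 ((0 : ZMod 3), t) = P3gl h3 (0, 1) ^ t.val := by
      intro t
      rcases SLNine.zmod_cases t with rfl | rfl | rfl
      · exact ⟨Units.ext (by rw [show (0 : ZMod 3).val = 0 from rfl, pow_zero]; exact P3_zero),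
          Units.ext (by rw [show (0 : ZMod 3).val = 0 from rfl, pow_zero]; exact P3_zero)⟩
      · exact ⟨(pow_one _).symm, (pow_one _).symm⟩
      · constructor <;>
        · rw [show (2 : ZMod 3).val = 2 from rfl, pow_two]
          refine Units.ext ?_
          rw [Units.val_mul, coe_P3gl, coe_P3gl, P3_mul h3]
          simp only [zero_mul, mul_zero, ph_zero, one_smul, Prod.mk_add_mk, add_zero]
          rw [show (1 : ZMod 3) + 1 = 2 from rfl]
    rw [show P3gl h3 u = P3gl h3 (u.1, 0) * P3gl h3 (0, u.2) from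
      Units.ext (by simp [P3_mul h3]), (hp' u.1).1, (hp' u.2).2]
    exact o.R.mul_mem (o.R.pow_mem hP0 _) (o.R.pow_mem hD0 _)
  have hmem : (x * P3gl h3 u * x⁻¹ : GL (ZMod 3) F) ∈ o.R :=
    (Subgroup.mem_normalizer_iff.1 (hN hx) _).1 hR
  obtain ⟨c, w, hw⟩ := AmbSLAux.exists_smul_of_mem_R hω h2 hmem
  refine ⟨w, c, ?_⟩
  have := congrArg (fun A => A * (x : Matrix (ZMod 3) (ZMod 3) F)) hw
  simpa [Units.val_mul, mul_assoc] using this

/-- The dichotomy. -/
theorem dich (C : UCtx σ ω p) (hp : 5 ≤ p)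
    (std : p ≠ 5 → ∀ (o : SLThree.Omega F) (H : Subgroup (GL (Fin 3) F)), SLThree.C6Hyp o H →
      H ≤ Cfsg.Geo.subgroupNormalizer o.R)
    (H : Subgroup (GL (ZMod 3) F)) (hU : H ≤ UU (ZMod 3) σ)
    (hP : ∀ g : GL (ZMod 3) F, (∃ v, (g : Matrix (ZMod 3) (ZMod 3) F) = P3 ω v) → g ∈ H)
    (hf : ∀ g : GL (ZMod 3) F, (g : Matrix (ZMod 3) (ZMod 3) F) = fourier ω → g ∈ H)
    (hq : ∀ g : GL (ZMod 3) F, (g : Matrix (ZMod 3) (ZMod 3) F) = quadDiag ω → g ∈ H) :
    H ≤ N3 ω ∨ UU (ZMod 3) σ ⊓ Cfsg.Geo.specialLinear (ZMod 3) F ≤ H := by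
  classical
  have hG : G25 C ≤ H := by
    refine (Subgroup.closure_le _).2 ?_
    rintro g (⟨v, rfl⟩ | rfl | rfl)
    · exact hP _ ⟨v, rfl⟩
    · exact hf _ rfl
    · exact hq _ rfl
  by_cases hT : HasTransvection H
  · exact Or.inr (su_le_of_hasTransvection C (by omega) hU hG hT)
  refine Or.inl fun g hg => ?_
  -- base points go to base points
  have hbase : ∀ x ∈ H, ∀ c, IsBase c → IsBase (ap x c) := by
    intro x hx c hc
    obtain ⟨k, hk, a, rfl⟩ := exists_gen_base C hc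
    have ha : a ≠ 0 := by rintro rfl; exact hc.1 (zero_smul _ _)
    rw [ap_smul, ← ap_mul]
    refine isBase_smul ha ?_
    have hxk : x * k ∈ H := mul_mem hx (hG hk)
    set e : ZMod 3 → F := Pi.single 0 1
    have he : uForm σ (ap (x * k) e) (ap (x * k) e) = 1 :=
      (hU hxk e e).trans (uForm_e0 σ)
    have he0 : InC H σ ω e := ⟨gQ C, hG (gQ_mem C), ω, homMat_e0 C⟩
    by_cases h5 : p = 5
    · subst h5
      by_contra hnb
      exact hT (hasTransvection_of_inC C hU hG (by rw [he]; exact one_ne_zero)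
        (inC_ap hU hxk he0) hnb)
    · have hN := special_le_N3 C hp h5 (std h5) hG hT
      set y := x * k
      have hyQ : y * gQ C * y⁻¹ * (gQ C)⁻¹ ∈ H :=
        mul_mem (mul_mem (mul_mem hxk (hG (gQ_mem C))) (inv_mem hxk)) (inv_mem (hG (gQ_mem C)))
      have hyS : y * gQ C * y⁻¹ * (gQ C)⁻¹ ∈ Cfsg.Geo.specialLinear (ZMod 3) F := by
        refine MonoidHom.mem_ker.2 ?_
        rw [map_mul, map_mul, map_mul, map_inv, map_inv, mul_inv_cancel_comm, mul_inv_cancel]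
      have hy : y * gQ C * y⁻¹ * (gQ C)⁻¹ ∈ N3 ω := hN (Subgroup.mem_inf.2 ⟨hyQ, hyS⟩)
      have hy' : y * gQ C * y⁻¹ ∈ N3 ω := by
        have := mul_mem hy (G25_le_N3 C (gQ_mem C))
        rwa [inv_mul_cancel_right] at this
      refine isBase_of_homMat_mem C hy' (a := ω) ?_ (by rw [he]; exact one_ne_zero)
      rw [Units.val_mul, Units.val_mul, show (gQ C : Matrix (ZMod 3) (ZMod 3) F) =
        ω • homMat σ ω e from homMat_e0 C, mul_smul_comm, smul_mul_assoc, homMat_conj (hU hxk)]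
  obtain ⟨a, h, hh, hgh⟩ := exists_smul_gen C (hU hg) fun k hk c hc =>
    hbase _ (mul_mem (hG hk) hg) c hc
  refine (mem_N3_iff C.root).mpr fun v => ?_
  obtain ⟨w, b, hw⟩ := (G25_le_N3 C hh).1 v
  exact ⟨w, b, by rw [hgh, smul_mul_assoc, hw, mul_smul_comm, smul_comm]⟩

end CfsgLib.Geometric.SUNine
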