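import Cfsg.Agent.Lib.Geometric.SUNine.AmbGen
import Cfsg.Agent.Lib.Geometric.SUNine.AmbNormal
import Cfsg.Agent.Lib.Geometric.SUNine.Dich

/-!
The ambient data of the unitary groups `U₃(p)` and `U₉(p)` for a prime `p ≥ 5`, `p ≡ 2 (mod 3)`.
-/

set_option autoImplicit false

namespace CfsgLib.Geometric.SUNine

open Matrix CfsgLib.Geometric.SLNine
open scoped Kronecker

variable {F : Type*} [Field F]

omit [Field F] in
lemma zero_ne_one_zero : ((0 : ZMod 3), (0 : ZMod 3)) ≠ (1, 0) := by decide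

variable [Fintype F] {σ : F ≃+* F} {ω : F} {p : ℕ}

/-- The generation statement. -/
theorem amb_gen (C : UCtx σ ω p) (M : Subgroup (GL J9 F))
    (hN : N9 ω ⊓ (UU J9 σ ⊓ Cfsg.Geo.specialLinear J9 F) ≤ M)
    (hbd : ∀ a : ZMod 3 → GL (ZMod 3) F,
      (∀ i, a i ∈ UU (ZMod 3) σ ⊓ Cfsg.Geo.specialLinear (ZMod 3) F) → bdHom a ∈ M) :
    UU J9 σ ⊓ Cfsg.Geo.specialLinear J9 F ≤ M := by
  classical
  set G := UU J9 σ ⊓ Cfsg.Geo.specialLinear J9 F with hG
  have hω := C.root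
  have hbdG : ∀ a : ZMod 3 → GL (ZMod 3) F,
      (∀ i, a i ∈ UU (ZMod 3) σ ⊓ Cfsg.Geo.specialLinear (ZMod 3) F) → bdHom a ∈ M ⊓ G :=
    fun a ha => ⟨hbd a ha, bd_mem_UU fun i => (ha i).1, SLNine.mem_specialLinear.2 (by
      rw [coe_bdHom, det_bd]
      exact Finset.prod_eq_one fun i _ => SLNine.mem_specialLinear.1 (ha i).2)⟩
  have hswN : pmHom (F := F) swapPerm ∈ N9 ω ⊓ G :=
    ⟨pm_mem_N9 hω _ (fun v => (v.2, v.1)) (fun v j => by simp [swapPerm])
      (fun v j => by simp [swapPerm]; ring), pm_mem_UU σ _,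
      SLNine.mem_specialLinear.mpr (det_pmat _)⟩
  have hsw : pmHom swapPerm ∈ M ⊓ G := ⟨hN hswN, hswN.2⟩
  have hdiag : ∀ (g : GL J9 F) (d : J9 → F), (g : Matrix J9 J9 F) = Matrix.diagonal d →
      g ∈ UU J9 σ → g ∈ Cfsg.Geo.specialLinear J9 F → g ∈ M ⊓ G :=
    fun g d hg h1 h2 => diag_mem hbdG hsw hg h1 h2
  have hker : kronHom (fourierGL hω, 1) ∈ N9 ω ⊓ G :=
    ⟨kron_mem_N9 hω (fourierGL_mem_N3 hω) (one_mem _),
      kron_mem_UU ((mem_UU_iff σ _).2 (fourier_unitary C)) (one_mem _),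
      SLNine.mem_specialLinear.mpr (by rw [det_kronHom]; simp [det_fourier hω])⟩
  have key : G ≤ M ⊓ G := by
    refine le_of_monomial C.card C.conj inf_le_right (fun g ⟨d, hd⟩ hg => hdiag g d hd hg.1 hg.2)
      (pm_all_mem (fun i k l h => pm_row_mem hbdG hdiag i k l h) hsw)
      ⟨_, ⟨hN hker, hker.2⟩, ((0 : ZMod 3), 0), ((1 : ZMod 3), 0), (0, 0), zero_ne_one_zero, ?_, ?_⟩
    all_goals
      simp [coe_kronHom, SLNine.fourier_apply, C.theta_ne]
  exact key.trans inf_le_left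

/-- The ambient data of the unitary groups. -/
def ambSU (C : UCtx σ ω p) (hp : 5 ≤ p)
    (std : p ≠ 5 → ∀ (o : SLThree.Omega F) (H : Subgroup (GL (Fin 3) F)), SLThree.C6Hyp o H →
      H ≤ Cfsg.Geo.subgroupNormalizer o.R) : Amb ω where
  U3 := UU (ZMod 3) σ
  U9 := UU J9 σ
  P3_mem v g hg := (mem_UU_iff σ g).2 (by rw [hg]; exact P3_unitary C v)
  fourier_mem g hg := (mem_UU_iff σ g).2 (by rw [hg]; exact fourier_unitary C)
  quad_mem g hg := (mem_UU_iff σ g).2 (by rw [hg]; exact quad_unitary C)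
  kron_mem _ ha _ hb := kron_mem_UU ha hb
  pm_mem π := pm_mem_UU σ π
  bd_mem _ ha := bd_mem_UU ha
  blk_mem _ h := blk_mem_UU h
  minus_mem _ hg hc _ he := minus_mem_UU (two_ne C hp) hg hc he
  dich H hU hP hf hq := dich C hp std H hU hP hf hq
  normal_le K hU hK hns := normal_le C (by omega) K hU hK hns
  torus := ⟨ω, C.ne_zero, fun h => C.root.pow_ne_one_of_pos_of_lt (l := 2) (by norm_num) (by norm_num)
    (by rw [pow_two]; exact h), fun g hg => by
      refine (diagonal_mem_UU hg).2 fun j => ?_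
      have h3 : ω * σ ω = 1 := by rw [C.conj_root, ← pow_succ']; exact C.pow_three
      have h0 : σ ω ≠ 0 := fun e => by simp [e] at h3
      by_cases h : j = 0
      · simp [h, h3]
      · by_cases h' : j = 1
        · simp only [if_neg h, if_pos h', map_inv₀, ← mul_inv, h3, inv_one]
        · simp [h, h']⟩
  gen M hN hbd := amb_gen C M hN hbd

end CfsgLib.Geometric.SUNine
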