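import Cfsg.Agent.Lib.Geometric.SUNine.Gens

/-!
The base points are the orbit of the first coordinate point; an isometry mapping base points to
base points is a scalar multiple of an element of the generated group, and homologies in the
normaliser have base centres.
-/

set_option autoImplicit false

namespace CfsgLib.Geometric.SUNine

open Matrix CfsgLib.Geometric.SLNine

variable {F : Type*} [Field F] [Fintype F] {σ : F ≃+* F} {ω : F} {p : ℕ}

omit [Fintype F] in
lemma uForm_e0 (σ : F ≃+* F) : uForm σ (Pi.single 0 1 : ZMod 3 → F) (Pi.single 0 1 : ZMod 3 → F) = 1 := by simp [uForm_single]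

lemma ap_gP (C : UCtx σ ω p) (v : V3) (x : ZMod 3 → F) (i : ZMod 3) :
    ap (gP C v) x i = ph ω (v.2 * (i - v.1)) * x (i - v.1) := by
  change (P3 ω v *ᵥ x) i = _
  rw [mulVec, dotProduct, Finset.sum_eq_single (i - v.1)]
  · simp [P3]
  · intro k _ hk
    have : ¬ i = k + v.1 := fun h => hk (by rw [h, add_sub_cancel_right])
    simp [P3, this]
  · simp

lemma ap_gF (C : UCtx σ ω p) (x : ZMod 3 → F) (i : ZMod 3) :
    ap (gF C) x i = (ω - ω ^ 2)⁻¹ * (x 0 + ph ω i * x 1 + ph ω (i * 2) * x 2) := by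
  change (fourier ω *ᵥ x) i = _
  rw [mulVec, dotProduct, sum_three]
  simp only [fourier_apply, mul_zero, ph_zero, mul_one]
  ring

lemma ap_gQ (C : UCtx σ ω p) (x : ZMod 3 → F) (i : ZMod 3) :
    ap (gQ C) x i = ph ω (i * i) * x i :=
  mulVec_diagonal _ _ i

lemma ap_pow_gQ (C : UCtx σ ω p) (k : ℕ) (x : ZMod 3 → F) (i : ZMod 3) :
    ap (gQ C ^ k) x i = ph ω (k * (i * i)) * x i := by
  induction k generalizing x with
  | zero => simp [ph_zero]
  | succ k ih =>
    rw [pow_succ, ap_mul, ih, ap_gQ, ← mul_assoc, ← C.ph_add]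
    push_cast
    ring_nf

/-- Any diagonal with entries powers of `ω`, the first one, lies in the group. -/
lemma exists_diag_mem (C : UCtx σ ω p) (s : ZMod 3 → ZMod 3) (hs : s 0 = 0) :
    ∃ g ∈ G25 C, ∀ x i, ap g x i = ph ω (s i) * x i := by
  refine ⟨gQ C ^ (2 * (s 1 + s 2) : ZMod 3).val * gP C (0, 2 * (s 1 - s 2)),
    mul_mem (pow_mem (gQ_mem C) _) (gP_mem C _), fun x i => ?_⟩
  rw [ap_mul, ap_pow_gQ, ap_gP, sub_zero, ← mul_assoc, ← C.ph_add, ZMod.natCast_zmod_val]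
  congr 2
  generalize h1 : s 1 = a
  generalize h2 : s 2 = b
  obtain rfl | rfl | rfl : i = 0 ∨ i = 1 ∨ i = 2 := by clear * - i; revert i; decide
  · rw [hs]; ring
  · rw [h1]; clear h1 h2; dsimp only; revert a b; decide
  · rw [h2]; clear h1 h2; dsimp only; revert a b; decide

lemma exists_root (C : UCtx σ ω p) {r : F} (h : r ^ 3 = 1) : ∃ a : ZMod 3, r = ph ω a := by
  obtain ⟨i, hi, rfl⟩ := C.root.eq_pow_of_pow_eq_one h
  exact ⟨(i : ZMod 3), by rw [ph, ZMod.val_natCast, Nat.mod_eq_of_lt hi]⟩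

/-- Base lines are images of the first coordinate line. -/
lemma exists_gen_base (C : UCtx σ ω p) {c : ZMod 3 → F} (hc : IsBase c) :
    ∃ g ∈ G25 C, ∃ a : F, c = a • ap g (Pi.single 0 1 : ZMod 3 → F) := by
  obtain ⟨hc0, ⟨i, hi⟩ | hall⟩ := hc
  · refine ⟨gP C (i, 0), gP_mem C _, c i, funext fun j => ?_⟩
    rw [Pi.smul_apply, ap_gP, zero_mul, ph_zero, one_mul, smul_eq_mul]
    rcases eq_or_ne j i with rfl | hj
    · simp
    · simp [hi j hj, Pi.single_eq_of_ne (sub_ne_zero.2 hj)]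
  · have h0 : c 0 ≠ 0 := by
      intro h
      refine hc0 (funext fun i => ?_)
      have := hall i
      rw [h, zero_pow three_ne_zero] at this
      exact eq_zero_of_pow_eq_zero this
    have hr : ∀ i, ∃ a : ZMod 3, c i / c 0 = ph ω a := fun i =>
      exists_root C (by rw [div_pow, hall i, div_self (pow_ne_zero 3 h0)])
    choose s hs using hr
    let s' : ZMod 3 → ZMod 3 := fun i => if i = 0 then 0 else s i
    obtain ⟨d, hd, hd'⟩ := exists_diag_mem C s' rfl
    refine ⟨d * gF C, mul_mem hd (gF_mem C), c 0 * (ω - ω ^ 2), funext fun j => ?_⟩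
    rw [Pi.smul_apply, ap_mul, hd', ap_gF, smul_eq_mul]
    simp only [Pi.single_eq_same, Pi.single_eq_of_ne (show (1 : ZMod 3) ≠ 0 by decide),
      Pi.single_eq_of_ne (show (2 : ZMod 3) ≠ 0 by decide), mul_zero, add_zero, mul_one]
    have hθ := C.theta_ne
    have hω0 := C.ne_zero
    have h1ω : (1 : F) - ω ≠ 0 := sub_ne_zero.2 C.ne_one.symm
    by_cases hj : j = 0
    · subst hj; simp [s', ph_zero]; field_simp
    · simp only [s', if_neg hj, ← hs]; field_simp

lemma uForm_base_ne (C : UCtx σ ω p) {c : ZMod 3 → F} (hc : IsBase c) : uForm σ c c ≠ 0 := by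
  obtain ⟨g, hg, a, rfl⟩ := exists_gen_base C hc
  have ha : a ≠ 0 := by rintro rfl; exact hc.1 (zero_smul _ _)
  have he : uForm σ (ap g (Pi.single 0 1 : ZMod 3 → F)) (ap g (Pi.single 0 1 : ZMod 3 → F)) = uForm σ (Pi.single 0 1 : ZMod 3 → F) (Pi.single 0 1 : ZMod 3 → F) := G25_le_UU C hg _ _
  rw [uForm_smul, he, uForm_e0, mul_one]
  exact mul_ne_zero ha (by simpa using ha)

lemma homMat_e0 (C : UCtx σ ω p) : quadDiag ω = ω • homMat σ ω (Pi.single 0 1 : ZMod 3 → F) := by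
  ext i j
  rw [homMat, uForm_e0, Matrix.smul_apply, Matrix.add_apply, Matrix.smul_apply, vecMulVec_apply,
    quadDiag, div_one, smul_eq_mul, smul_eq_mul, Matrix.one_apply]
  obtain rfl | rfl | rfl : i = 0 ∨ i = 1 ∨ i = 2 := by clear * - i; revert i; decide
  all_goals obtain rfl | rfl | rfl : j = 0 ∨ j = 1 ∨ j = 2 := by clear * - j; revert j; decide
  all_goals simp +decide [ph]
  · linear_combination -C.pow_three
  all_goals
    change ω ^ (1 : ℕ) = ω
    exact pow_one ω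

lemma inC_base (C : UCtx σ ω p) {H : Subgroup (GL (ZMod 3) F)} (hU : H ≤ UU (ZMod 3) σ)
    (hG : G25 C ≤ H) {c : ZMod 3 → F} (hc : IsBase c) : InC H σ ω c := by
  obtain ⟨g, hg, a, rfl⟩ := exists_gen_base C hc
  have ha : a ≠ 0 := by rintro rfl; exact hc.1 (zero_smul _ _)
  obtain ⟨k, hk, b, hb⟩ := inC_ap (σ := σ) (ω := ω) hU (hG hg)
    (⟨gQ C, hG (gQ_mem C), ω, homMat_e0 C⟩ : InC H σ ω (Pi.single 0 1 : ZMod 3 → F))
  exact ⟨k, hk, b, by rw [homMat_smul ha]; exact hb⟩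

omit [Fintype F] in
lemma isBase_e0 : IsBase (Pi.single 0 1 : ZMod 3 → F) :=
  ⟨fun h => one_ne_zero (α := F) (by simpa using congrFun h 0),
    Or.inl ⟨0, fun j hj => Pi.single_eq_of_ne hj _⟩⟩

omit [Fintype F] in
lemma isBase_axis {c : ZMod 3 → F} (i : ZMod 3) (hc : c i ≠ 0) (h : ∀ j, j ≠ i → c j = 0) :
    IsBase c :=
  ⟨fun h0 => hc (congrFun h0 i), Or.inl ⟨i, h⟩⟩

/-- An isometry mapping, after any element of the group, base lines to base lines. -/
theorem exists_smul_gen (C : UCtx σ ω p) {g : GL (ZMod 3) F} (hg : g ∈ UU (ZMod 3) σ)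
    (hS : ∀ h ∈ G25 C, ∀ c, IsBase c → IsBase (ap (h * g) c)) :
    ∃ a : F, ∃ h ∈ G25 C, (g : Matrix (ZMod 3) (ZMod 3) F) = a • (h : Matrix (ZMod 3) (ZMod 3) F) := by
  obtain ⟨k, hk, a, hka⟩ := exists_gen_base C
    (by have := hS 1 (one_mem _) (Pi.single 0 1 : ZMod 3 → F) isBase_e0; rwa [one_mul] at this)
  obtain ⟨g₁, hg₁def⟩ : ∃ x, x = k⁻¹ * g := ⟨_, rfl⟩
  have hg₁U : g₁ ∈ UU (ZMod 3) σ := hg₁def ▸ mul_mem (inv_mem (G25_le_UU C hk)) hg
  have h0 : ap g₁ (Pi.single 0 1 : ZMod 3 → F) = a • (Pi.single 0 1 : ZMod 3 → F) := by rw [hg₁def, ap_mul, hka, ap_smul, ap_inv_ap]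
  have ha : a ≠ 0 := by
    rintro rfl
    rw [zero_smul] at h0
    exact ap_ne_zero g₁ isBase_e0.1 h0
  -- the other coordinate vectors
  have haxis : ∀ i, i ≠ 0 → ∃ m, m ≠ 0 ∧ ∀ j, j ≠ m → ap g₁ (Pi.single i 1) j = 0 := by
    intro i hi
    have hb : IsBase (ap g₁ (Pi.single i 1)) := by
      rw [hg₁def]
      exact hS _ (inv_mem hk) _ (isBase_axis i (by simp) fun j hj => Pi.single_eq_of_ne hj _)
    have horth : ap g₁ (Pi.single i 1) 0 = 0 := by
      have h := hg₁U (Pi.single i 1) (Pi.single 0 1 : ZMod 3 → F)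
      change uForm σ (ap g₁ _) (ap g₁ _) = _ at h
      rw [h0, uForm_single, if_neg hi] at h
      have e := uForm_smul σ (1 : F) a (ap g₁ (Pi.single i 1)) (Pi.single 0 1 : ZMod 3 → F)
      rw [one_smul, one_mul, h] at e
      have : uForm σ (ap g₁ (Pi.single i 1)) (Pi.single 0 1 : ZMod 3 → F) = 0 :=
        (mul_eq_zero.1 e.symm).resolve_left (by simpa using ha)
      rwa [uForm, sum_three, Pi.single_eq_same, Pi.single_eq_of_ne (show (1 : ZMod 3) ≠ 0 by decide),
        Pi.single_eq_of_ne (show (2 : ZMod 3) ≠ 0 by decide), map_one, map_zero, mul_one, mul_zero,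
        mul_zero, add_zero, add_zero] at this
    obtain ⟨hne, ⟨m, hm⟩ | hall⟩ := hb
    · refine ⟨m, fun hm0 => hne (funext fun j => ?_), hm⟩
      rcases eq_or_ne j m with rfl | hj
      · rw [hm0]; exact horth
      · exact hm j hj
    · exfalso
      refine hne (funext fun j => ?_)
      have := hall j
      rw [horth, zero_pow three_ne_zero] at this
      exact eq_zero_of_pow_eq_zero this
  obtain ⟨m, hm, hm1⟩ := haxis 1 (by decide)
  obtain ⟨m', hm', hm2⟩ := haxis 2 (by decide)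
  -- normalise the permutation
  obtain ⟨h₂, hh₂, b, hb0, g₂, hg₂, hd⟩ : ∃ h₂ ∈ G25 C, ∃ b : F, b ≠ 0 ∧ ∃ g₂, g₂ = h₂ * g₁ ∧
      ∀ i j, j ≠ i → ap g₂ (Pi.single i 1) j = 0 := by
    have hmm : m ≠ m' := by
      rintro rfl
      have hu := hg₁U (Pi.single 1 1) (Pi.single 2 1)
      change uForm σ (ap g₁ _) (ap g₁ _) = _ at hu
      rw [uForm_single, if_neg (by decide), uForm, Finset.sum_eq_single m
        (fun j _ hj => by rw [hm1 j hj, zero_mul]) (by simp)] at hu
      rcases mul_eq_zero.1 hu with h | h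
      · exact ap_ne_zero g₁ (isBase_axis (c := Pi.single 1 1) 1 (by simp) fun j hj =>
          Pi.single_eq_of_ne hj _).1 (funext fun j => by
            rcases eq_or_ne j m with rfl | hj
            · exact h
            · exact hm1 j hj)
      · exact ap_ne_zero g₁ (isBase_axis (c := Pi.single 2 1) 2 (by simp) fun j hj =>
          Pi.single_eq_of_ne hj _).1 (funext fun j => by
            rcases eq_or_ne j m with rfl | hj
            · exact (map_eq_zero_iff _ σ.injective).1 h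
            · exact hm2 j hj)
    obtain ⟨rfl, rfl⟩ | ⟨rfl, rfl⟩ : (m = 1 ∧ m' = 2) ∨ (m = 2 ∧ m' = 1) := by
      revert hmm hm hm'; clear * - ; revert m m'; decide
    · refine ⟨1, one_mem _, 1, one_ne_zero, g₁, (one_mul _).symm, fun i j hj => ?_⟩
      obtain rfl | rfl | rfl : i = 0 ∨ i = 1 ∨ i = 2 := by clear * - i; revert i; decide
      · rw [h0, Pi.smul_apply, Pi.single_eq_of_ne hj, smul_zero]
      · exact hm1 j hj
      · exact hm2 j hj
    · refine ⟨gF C * gF C, mul_mem (gF_mem C) (gF_mem C), 1, one_ne_zero, _, rfl, fun i j hj => ?_⟩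
      have hneg : ∀ (x : ZMod 3 → F) (j : ZMod 3), ap (gF C * gF C) x j = -x (-j) := by
        intro x j
        have hθ := C.theta_ne
        have hcomb : ∀ A B D u v R : F, A + u * B + v * D = (ω - ω ^ 2) * (ω - ω ^ 2) * R →
            (ω - ω ^ 2)⁻¹ * ((ω - ω ^ 2)⁻¹ * A + u * ((ω - ω ^ 2)⁻¹ * B) +
              v * ((ω - ω ^ 2)⁻¹ * D)) = R := fun A B D u v R h => by
          rw [show (ω - ω ^ 2)⁻¹ * ((ω - ω ^ 2)⁻¹ * A + u * ((ω - ω ^ 2)⁻¹ * B) +
              v * ((ω - ω ^ 2)⁻¹ * D)) =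
            (ω - ω ^ 2)⁻¹ * (ω - ω ^ 2)⁻¹ * (A + u * B + v * D) by ring, h, ← mul_inv,
            inv_mul_cancel_left₀ (mul_ne_zero hθ hθ)]
        rw [ap_mul, ap_gF, ap_gF, ap_gF, ap_gF]
        obtain rfl | rfl | rfl : j = 0 ∨ j = 1 ∨ j = 2 := by clear * - j; revert j; decide
        all_goals simp only [ph, show ((1 : ZMod 3) * 2) = 2 by decide,
          show ((2 : ZMod 3) * 2) = 1 by decide, show ((0 : ZMod 3) * 2) = 0 by decide,
          show (-1 : ZMod 3) = 2 by decide, show (-2 : ZMod 3) = 1 by decide, neg_zero]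
        · refine hcomb _ _ _ _ _ _ ?_
          change x 0 + ω ^ 0 * x 1 + ω ^ 0 * x 2 + ω ^ 0 * (x 0 + ω ^ 1 * x 1 + ω ^ 2 * x 2) +
            ω ^ 0 * (x 0 + ω ^ 2 * x 1 + ω ^ 1 * x 2) = _
          linear_combination (x 1 + x 2 + (ω ^ 2 - 3 * ω + 3) * x 0) * C.sum_eq
        · refine hcomb _ _ _ _ _ _ ?_
          change x 0 + ω ^ 0 * x 1 + ω ^ 0 * x 2 + ω ^ 1 * (x 0 + ω ^ 1 * x 1 + ω ^ 2 * x 2) +
            ω ^ 2 * (x 0 + ω ^ 2 * x 1 + ω ^ 1 * x 2) = _
          linear_combination (x 0 + (ω ^ 2 - ω + 1) * (x 1 + x 2)) * C.sum_eq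
        · refine hcomb _ _ _ _ _ _ ?_
          change x 0 + ω ^ 0 * x 1 + ω ^ 0 * x 2 + ω ^ 2 * (x 0 + ω ^ 1 * x 1 + ω ^ 2 * x 2) +
            ω ^ 1 * (x 0 + ω ^ 2 * x 1 + ω ^ 1 * x 2) = _
          linear_combination (x 0 + (ω ^ 2 - ω + 1) * (x 1 + x 2)) * C.sum_eq
      rw [ap_mul, hneg]
      obtain rfl | rfl | rfl : i = 0 ∨ i = 1 ∨ i = 2 := by clear * - i; revert i; decide
      · rw [h0, Pi.smul_apply, Pi.single_eq_of_ne (by simpa using hj), smul_zero, neg_zero]
      · rw [hm1 _ (fun h => hj (by revert h; revert j; decide)), neg_zero]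
      · rw [hm2 _ (fun h => hj (by revert h; revert j; decide)), neg_zero]
  have hg₂U : g₂ ∈ UU (ZMod 3) σ := hg₂ ▸ mul_mem (G25_le_UU C hh₂) hg₁U
  set d : ZMod 3 → F := fun i => ap g₂ (Pi.single i 1) i with hddef
  have hone : IsBase (ap g₂ fun _ => (1 : F)) := by
    rw [hg₂, hg₁def, ← mul_assoc]
    exact hS _ (mul_mem hh₂ (inv_mem hk)) _
      ⟨fun h => one_ne_zero (α := F) (congrFun h 0), Or.inr fun i => rfl⟩
  have hmat : (g₂ : Matrix (ZMod 3) (ZMod 3) F) = diagonal d := by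
    ext i j
    have hji : (g₂ : Matrix (ZMod 3) (ZMod 3) F) i j = ap g₂ (Pi.single j 1) i := by simp [ap]
    rcases eq_or_ne i j with rfl | hij
    · rw [diagonal_apply_eq, hji]
    · rw [diagonal_apply_ne _ hij, hji, hd j i hij]
  have hd1 : ∀ i, ap g₂ (fun _ => (1 : F)) i = d i := fun i => by
    rw [ap, hmat, mulVec_diagonal, mul_one]
  have hdne : ∀ i, d i ≠ 0 := by
    intro i hi
    refine ap_ne_zero g₂ (isBase_axis (c := Pi.single i 1) i (by simp) fun j hj =>
      Pi.single_eq_of_ne hj _).1 (funext fun j => ?_)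
    rcases eq_or_ne j i with rfl | hj
    · exact hi
    · exact hd i j hj
  have hcube : ∀ i, d i ^ 3 = d 0 ^ 3 := by
    obtain ⟨-, ⟨m, hm⟩ | h⟩ := hone
    · exfalso
      obtain ⟨j, hj⟩ : ∃ j, j ≠ m := ⟨m + 1, by clear * - m; revert m; decide⟩
      exact hdne j (hd1 j ▸ hm j hj)
    · intro i; rw [← hd1, ← hd1]; exact h i
  have hr : ∀ i, ∃ a : ZMod 3, d i / d 0 = ph ω a := fun i =>
    exists_root C (by rw [div_pow, hcube i, div_self (pow_ne_zero 3 (hdne 0))])
  choose s hs using hr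
  obtain ⟨e, he, he'⟩ := exists_diag_mem C (fun i => if i = 0 then 0 else s i) rfl
  refine ⟨d 0, k * h₂⁻¹ * e, mul_mem (mul_mem hk (inv_mem hh₂)) he, ?_⟩
  have he'' : (g₂ : Matrix (ZMod 3) (ZMod 3) F) = d 0 • (e : Matrix (ZMod 3) (ZMod 3) F) := by
    refine ext_of_mulVec_single fun i => funext fun j => ?_
    rw [hmat, mulVec_diagonal, smul_mulVec, Pi.smul_apply, smul_eq_mul]
    change _ = d 0 * ap e _ j
    rw [he']
    rcases eq_or_ne j 0 with rfl | hj0
    · rw [if_pos rfl, ph_zero, one_mul]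
    · rw [if_neg hj0, ← hs, ← mul_assoc, mul_div_cancel₀ _ (hdne 0)]
  rw [show g = k * h₂⁻¹ * g₂ by rw [hg₂, hg₁def]; group, Units.val_mul, he'', mul_smul_comm]
  rfl

/-- A homology in the normaliser has a base centre. -/
theorem isBase_of_homMat_mem (C : UCtx σ ω p) {g : GL (ZMod 3) F} (hg : g ∈ N3 ω) {a : F}
    {c : ZMod 3 → F} (hga : (g : Matrix (ZMod 3) (ZMod 3) F) = a • homMat σ ω c)
    (hc : uForm σ c c ≠ 0) : IsBase c := by
  classical
  have ha : a ≠ 0 := by
    rintro rfl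
    exact g.ne_zero (by rw [hga, zero_smul])
  have hc0 : c ≠ 0 := fun h => hc (by simp [h, uForm])
  have hη : ω ^ 2 ≠ 1 := C.root.pow_ne_one_of_pos_of_lt (by norm_num) (by norm_num)
  -- the homology
  set A := homMat σ ω c with hA
  have hAc : A *ᵥ c = ω ^ 2 • c := by
    rw [hA, homMat_mulVec, div_mul_cancel₀ _ hc, sub_smul, one_smul, add_sub_cancel]
  have hA3 : A * (A * A) = 1 := by
    refine ext_of_mulVec_single fun i => ?_
    rw [← mulVec_mulVec, ← mulVec_mulVec, hA, homMat_mulVec, homMat_mulVec, homMat_mulVec,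
      one_mulVec]
    have hl : ∀ (x : ZMod 3 → F) (t : F),
        uForm σ (x + t • c) c = uForm σ x c + t * uForm σ c c := fun x t => by
      simp only [uForm, Pi.add_apply, Pi.smul_apply, smul_eq_mul, add_mul, Finset.sum_add_distrib,
        Finset.mul_sum, mul_assoc]
    simp only [hl]
    rw [add_assoc, add_assoc, ← add_smul, ← add_smul, add_eq_left]
    refine smul_eq_zero_of_left ?_ c
    field_simp
    linear_combination (uForm σ (Pi.single i 1) c * (ω ^ 3 + 1)) * C.pow_three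
  have hval : ∀ y : ZMod 3 → F, y ≠ 0 → ∀ t : F, A *ᵥ y = t • y → t = 1 ∨ t = ω ^ 2 ∧
      ∃ r : F, y = r • c := by
    intro y hy t ht
    rw [hA, homMat_mulVec] at ht
    by_cases ht1 : t = 1
    · exact Or.inl ht1
    right
    have hyc : y = ((t - 1)⁻¹ * ((ω ^ 2 - 1) / uForm σ c c * uForm σ y c)) • c := by
      rw [mul_smul, eq_sub_of_add_eq' ht, show t • y - y = (t - 1) • y by rw [sub_smul, one_smul],
        inv_smul_smul₀ (sub_ne_zero.2 ht1)]
    obtain ⟨r, hr⟩ : ∃ r, y = r • c := ⟨_, hyc⟩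
    refine ⟨?_, r, hr⟩
    have h2 : A *ᵥ y = ω ^ 2 • y := by rw [hr, mulVec_smul, hAc, smul_comm]
    rw [hA, homMat_mulVec, ht] at h2
    exact smul_left_injective F hy h2
  -- the action on the lines
  choose f k hf using hg.1
  have hPinj : ∀ u w : V3, (∃ t : F, t ≠ 0 ∧ P3 ω u = t • P3 ω w) → u = w := by
    rintro u w ⟨t, ht, e⟩
    have h1 : u.1 = w.1 := by
      by_contra hne
      have := congrFun (congrFun e (0 + u.1)) 0
      simp [P3, hne, ph_zero] at this
    refine Prod.ext h1 ?_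
    have h0 := congrFun (congrFun e (0 + u.1)) 0
    have h1' := congrFun (congrFun e (1 + u.1)) 1
    simp [P3, h1, ph_zero] at h0 h1'
    rw [← h0, one_mul] at h1'
    have hinj : ∀ x y : ZMod 3, ph ω x = ph ω y → x = y := fun x y hxy =>
      ZMod.val_injective 3 (C.root.pow_inj (ZMod.val_lt x) (ZMod.val_lt y) hxy)
    exact hinj _ _ h1'
  have hf' : ∀ v, A * P3 ω v = k v • (P3 ω (f v) * A) := fun v => by
    have h := hf v
    rw [hga, smul_mul_assoc, mul_smul_comm, smul_comm (k v) a] at h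
    exact smul_right_injective _ ha h
  have hkne : ∀ v, k v ≠ 0 := by
    intro v h
    have h1 := hf' v
    rw [h, zero_smul] at h1
    have h2 : (A * (A * A)) * P3 ω v = 0 := by
      rw [← mul_assoc A A A] at *
      rw [show A * A * A * P3 ω v = A * A * (A * P3 ω v) from mul_assoc _ _ _, h1, mul_zero]
    rw [hA3, one_mul] at h2
    have := congrFun (congrFun h2 (0 + v.1)) 0
    simp [P3, ph_zero] at this
  have hit : ∀ v, f (f (f v)) = v := by
    intro v
    refine (hPinj _ _ ⟨(k (f (f v)) * k (f v) * k v)⁻¹, inv_ne_zero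
      (mul_ne_zero (mul_ne_zero (hkne _) (hkne _)) (hkne _)), ?_⟩)
    have h1 : A * (A * (A * P3 ω v)) =
        (k (f (f v)) * k (f v) * k v) • (P3 ω (f (f (f v))) * (A * (A * A))) := by
      rw [hf' v, mul_smul_comm, mul_smul_comm, ← mul_assoc A (P3 ω (f v)), hf' (f v),
        smul_mul_assoc, mul_smul_comm, mul_assoc (P3 ω (f (f v))), ← mul_assoc A (P3 ω (f (f v))),
        hf' (f (f v)), smul_mul_assoc, mul_assoc, smul_smul, smul_smul]
      congr 1
      ring
    rw [← mul_assoc A A, ← mul_assoc, show A * A * A = 1 by rw [mul_assoc]; exact hA3, one_mul,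
      hA3, mul_one] at h1
    rw [h1, smul_smul, inv_mul_cancel₀ (mul_ne_zero (mul_ne_zero (hkne _) (hkne _)) (hkne _)),
      one_smul]
  have hf0 : f 0 = 0 := by
    refine hPinj _ _ ⟨(k 0)⁻¹, inv_ne_zero (hkne 0), ?_⟩
    have hP0 : P3 ω (0 : V3) = 1 := by
      ext i j
      simp [P3, ph_zero, Matrix.one_apply]
    have h := hf' 0
    rw [hP0, mul_one] at h
    rw [hP0]
    have h2 := congrArg (· * (A * A)) h
    simp only [smul_mul_assoc, mul_assoc, hA3, mul_one] at h2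
    rw [h2, smul_smul, inv_mul_cancel₀ (hkne 0), one_smul]
  obtain ⟨v, hv0, hv⟩ : ∃ v : V3, v ≠ 0 ∧ f v = v := by
    let e : Equiv.Perm {v : V3 // v ≠ 0} :=
      { toFun := fun v => ⟨f v, fun h => v.2 (by rw [← hit v, h, hf0, hf0])⟩
        invFun := fun v => ⟨f (f v), fun h => v.2 (by rw [← hit v, h, hf0])⟩
        left_inv := fun v => Subtype.ext (hit v)
        right_inv := fun v => Subtype.ext (hit v) }
    have : Fact (Nat.Prime 3) := ⟨Nat.prime_three⟩
    obtain ⟨⟨v, hv0⟩, hv⟩ := Equiv.Perm.exists_fixed_point_of_prime (σ := e) (p := 3) (n := 1)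
      (by decide) (by
        refine Equiv.ext fun v => Subtype.ext ?_
        simp [pow_succ, e, hit])
    exact ⟨v, hv0, congrArg Subtype.val hv⟩
  -- the centre is an eigenvector
  have hPc : A *ᵥ (P3 ω v *ᵥ c) = (k v * ω ^ 2) • (P3 ω v *ᵥ c) := by
    rw [mulVec_mulVec, hf' v, hv, smul_mulVec, ← mulVec_mulVec, hAc, mulVec_smul, smul_smul]
  have hne : ∀ y : ZMod 3 → F, y ≠ 0 → P3 ω v *ᵥ y ≠ 0 := fun y hy h => by
    refine ap_ne_zero (gP C v) hy ?_
    exact h
  obtain ⟨μ, hμ⟩ : ∃ μ : F, P3 ω v *ᵥ c = μ • c := by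
    rcases hval _ (hne c hc0) _ hPc with h | ⟨-, r, hr⟩
    · exfalso
      have hPPc : A *ᵥ (P3 ω v *ᵥ (P3 ω v *ᵥ c)) =
          (k v * (k v * ω ^ 2)) • (P3 ω v *ᵥ (P3 ω v *ᵥ c)) := by
        rw [mulVec_mulVec, hf' v, hv, smul_mulVec, ← mulVec_mulVec, hPc, mulVec_smul, smul_smul]
      rw [h, mul_one] at hPPc
      rcases hval _ (hne _ (hne c hc0)) _ hPPc with h' | ⟨h', -⟩
      · rw [h', one_mul] at h; exact hη h
      · rw [h'] at h
        have : ω = 1 := by linear_combination h - ω * C.pow_three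
        exact C.ne_one this
    · exact ⟨r, hr⟩
  have hμj : ∀ j, ph ω (v.2 * j) * c j = μ * c (j + v.1) := fun j => by
    have := congrFun hμ (j + v.1)
    change _ = μ * c (j + v.1) at this
    rw [← this]
    exact ((ap_gP C v c (j + v.1)).trans (by rw [add_sub_cancel_right])).symm
  refine ⟨hc0, ?_⟩
  by_cases ha0 : v.1 = 0
  · left
    obtain ⟨i, hi⟩ : ∃ i, c i ≠ 0 := Function.ne_iff.1 hc0
    refine ⟨i, fun j hj => ?_⟩
    have hb : v.2 ≠ 0 := fun h => hv0 (Prod.ext ha0 h)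
    have h1 := hμj i
    have h2 := hμj j
    rw [ha0, add_zero] at h1 h2
    rw [mul_eq_mul_right_iff, or_iff_left hi] at h1
    rw [← h1, mul_eq_mul_right_iff] at h2
    refine h2.resolve_left fun he => ?_
    have := ZMod.val_injective 3 (C.root.pow_inj (ZMod.val_lt _) (ZMod.val_lt _) he)
    exact hj (mul_left_cancel₀ hb this)
  · right
    have hμ0 : μ ≠ 0 := fun h => hne c hc0 (by rw [hμ, h, zero_smul])
    have hph : ∀ x : ZMod 3, ph ω x ^ 3 = 1 := fun x => by
      rw [ph, ← pow_mul, mul_comm, pow_mul, C.pow_three, one_pow]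
    have hcube : ∀ j, c j ^ 3 = μ ^ 3 * c (j + v.1) ^ 3 := fun j => by
      rw [← mul_pow, ← hμj, mul_pow, hph, one_mul]
    have hμ3 : μ ^ 3 = 1 := by
      have h3 : ∀ a : ZMod 3, (a + a + a = 0) := by decide
      have hprod : ∀ j, ph ω (v.2 * j + v.2 * (j + v.1) + v.2 * (j + v.1 + v.1)) * c j =
          μ ^ 3 * c j := fun j => by
        rw [C.ph_add, C.ph_add,
          show ph ω (v.2 * j) * ph ω (v.2 * (j + v.1)) * ph ω (v.2 * (j + v.1 + v.1)) * c j =
            ph ω (v.2 * (j + v.1 + v.1)) * (ph ω (v.2 * (j + v.1)) * (ph ω (v.2 * j) * c j)) by ring,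
          hμj j, mul_left_comm _ μ, hμj (j + v.1), mul_left_comm _ μ, mul_left_comm _ μ,
          hμj (j + v.1 + v.1), show j + v.1 + v.1 + v.1 = j by
            rw [add_assoc, add_assoc, ← add_assoc v.1, h3, add_zero]]
        ring
      obtain ⟨i, hi⟩ : ∃ i, c i ≠ 0 := Function.ne_iff.1 hc0
      have hz : v.2 * i + v.2 * (i + v.1) + v.2 * (i + v.1 + v.1) = 0 := by
        rw [show v.2 * i + v.2 * (i + v.1) + v.2 * (i + v.1 + v.1) =
          v.2 * i + v.2 * i + v.2 * i + (v.2 * v.1 + v.2 * v.1 + v.2 * v.1) by ring, h3, h3,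
          add_zero]
      have := hprod i
      rw [hz, ph_zero, one_mul] at this
      exact (mul_eq_right₀ hi).1 this.symm
    have hstep : ∀ j, c (j + v.1) ^ 3 = c j ^ 3 := fun j => by rw [hcube j, hμ3, one_mul]
    intro i
    obtain ⟨n, hn⟩ : ∃ n : ℕ, i = n * v.1 := ⟨(i / v.1).val, by
      rw [ZMod.natCast_zmod_val, div_mul_cancel₀ i ha0]⟩
    subst hn
    clear * - hstep
    induction n with
    | zero => simp
    | succ n ih => rw [Nat.cast_succ, add_mul, one_mul, hstep, ih]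

/-- Elements of the normaliser that are isometries are scalar multiples of the generated group. -/
theorem N3_gen (C : UCtx σ ω p) {g : GL (ZMod 3) F} (hg : g ∈ N3 ω) (hgU : g ∈ UU (ZMod 3) σ) :
    ∃ a : F, ∃ h ∈ G25 C, (g : Matrix (ZMod 3) (ZMod 3) F) = a • (h : Matrix (ZMod 3) (ZMod 3) F) := by
  refine exists_smul_gen C hgU fun h hh c hc => ?_
  have hN : G25 C ≤ N3 ω ⊓ UU (ZMod 3) σ := le_inf (G25_le_N3 C) (G25_le_UU C)
  have hhg : h * g ∈ N3 ω ⊓ UU (ZMod 3) σ := mul_mem (hN hh) ⟨hg, hgU⟩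
  obtain ⟨k, hk, a, hka⟩ := inC_ap (σ := σ) (ω := ω) inf_le_right hhg
    (inC_base C inf_le_right hN hc)
  refine isBase_of_homMat_mem C hk.1 hka ?_
  have : uForm σ (ap (h * g) c) (ap (h * g) c) = uForm σ c c := hhg.2 c c
  rw [this]
  exact uForm_base_ne C hc

end CfsgLib.Geometric.SUNine
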