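import Cfsg.Agent.Lib.Geometric.SUNine.Base

/-!
In `GU₃(5)` every anisotropic point outside the twelve base points has squared cosine `3` with one
of them.
-/

set_option autoImplicit false

namespace CfsgLib.Geometric.SUNine

open Matrix CfsgLib.Geometric.SLNine

namespace Five

/-- The field with `25` elements as pairs `a + b ω`. -/
abbrev K := ZMod 5 × ZMod 5

/-- Addition. -/
def add (x y : K) : K := (x.1 + y.1, x.2 + y.2)

/-- Multiplication. -/
def mul (x y : K) : K := (x.1 * y.1 - x.2 * y.2, x.1 * y.2 + x.2 * y.1 - x.2 * y.2)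

/-- Conjugation. -/
def conj (x : K) : K := (x.1 - x.2, -x.2)

/-- The form. -/
def herm (c e : K × K × K) : K :=
  add (add (mul c.1 (conj e.1)) (mul c.2.1 (conj e.2.1))) (mul c.2.2 (conj e.2.2))

/-- Third power. -/
def cube (x : K) : K := mul x (mul x x)

/-- A base point. -/
def base (c : K × K × K) : Bool :=
  (c.2.1 == (0, 0) && c.2.2 == (0, 0)) || (c.1 == (0, 0) && c.2.2 == (0, 0)) ||
    (c.1 == (0, 0) && c.2.1 == (0, 0)) || (cube c.2.1 == cube c.1 && cube c.2.2 == cube c.1)

/-- The base points. -/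
def pts : List (K × K × K) :=
  [((1, 0), (0, 0), (0, 0)), ((0, 0), (1, 0), (0, 0)), ((0, 0), (0, 0), (1, 0))] ++
    ([((1, 0) : K), (0, 1), (4, 4)]).flatMap fun a =>
      ([((1, 0) : K), (0, 1), (4, 4)]).map fun b => ((1, 0), a, b)

/-- The property to check. -/
def good (c : K × K × K) : Bool :=
  herm c c == (0, 0) || base c ||
    pts.any fun e => mul (herm c e) (conj (herm c e)) == mul (3, 0) (mul (herm c c) (herm e e))

theorem check_one : ∀ a b : K, good ((1, 0), a, b) = true := by decide +kernel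

theorem check_two : ∀ a : K, good ((0, 0), (1, 0), a) = true := by decide +kernel

theorem check_three : good ((0, 0), (0, 0), (1, 0)) = true := by decide +kernel

end Five

variable {F : Type*} [Field F] [Fintype F] {σ : F ≃+* F} {ω : F}

/-- A non-base anisotropic point has squared cosine `3` with a base point. -/
theorem exists_cos_three (C : UCtx σ ω 5) {c : ZMod 3 → F} (hc : uForm σ c c ≠ 0)
    (hnb : ¬ IsBase c) :
    ∃ g ∈ G25 C, ap g c 0 * σ (ap g c 0) = 3 * uForm σ c c := by
  classical
  have := C.charP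
  have : Fact (Nat.Prime 5) := ⟨Nat.prime_five⟩
  have h5 : (5 : F) = 0 := by exact_mod_cast CharP.cast_eq_zero F 5
  let ι : ZMod 5 →+* F := ZMod.castHom dvd_rfl F
  let φ : Five.K → F := fun x => ι (x.1 : ZMod 5) + ι (x.2 : ZMod 5) * ω
  have hι : ∀ x : ZMod 5, σ (ι x) = ι x := fun x => by
    rw [C.conj, ← map_pow]
    exact congrArg ι (ZMod.pow_card x)
  have hadd : ∀ x y, φ (Five.add x y) = φ x + φ y := fun x y => by
    change ι ((x.1 : ZMod 5) + y.1) + ι ((x.2 : ZMod 5) + y.2) * ω = _
    rw [map_add, map_add]; ring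
  have hmul : ∀ x y, φ (Five.mul x y) = φ x * φ y := fun x y => by
    change ι ((x.1 : ZMod 5) * y.1 - x.2 * y.2) +
      ι ((x.1 : ZMod 5) * y.2 + x.2 * y.1 - x.2 * y.2) * ω = _
    simp only [map_add, map_sub, map_mul, φ]
    linear_combination (-(ι (x.2 : ZMod 5) * ι (y.2 : ZMod 5))) * C.sum_eq
  have hconj : ∀ x, φ (Five.conj x) = σ (φ x) := fun x => by
    change ι ((x.1 : ZMod 5) - x.2) + ι (-(x.2 : ZMod 5)) * ω = _
    simp only [map_add, map_sub, map_neg, map_mul, φ, hι, C.conj_root]
    linear_combination (-ι (x.2 : ZMod 5)) * C.sum_eq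
  have h0 : φ (0, 0) = 0 := by change ι 0 + ι 0 * ω = 0; simp
  have h1 : φ (1, 0) = 1 := by change ι 1 + ι 0 * ω = 1; simp
  have hinj : Function.Injective φ := by
    intro x y hxy
    have hxy' : ι ((x.1 : ZMod 5) - y.1) + ι ((x.2 : ZMod 5) - y.2) * ω = 0 := by
      simp only [φ] at hxy
      simp only [map_sub]
      linear_combination hxy
    have hb : ι ((x.2 : ZMod 5) - y.2) = 0 := by
      by_contra hb
      have hω : ω = -(ι ((x.1 : ZMod 5) - y.1)) / ι ((x.2 : ZMod 5) - y.2) := by
        field_simp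
        linear_combination hxy'
      have : σ ω = ω := by rw [hω, map_div₀, map_neg, hι, hι]
      rw [C.conj_root] at this
      have h1' : ω * (ω - 1) = 0 := by linear_combination this
      exact C.ne_one (sub_eq_zero.1 ((mul_eq_zero.1 h1').resolve_left C.ne_zero))
    rw [hb, zero_mul, add_zero] at hxy'
    exact Prod.ext (sub_eq_zero.1 (ι.injective (hxy'.trans (map_zero ι).symm)))
      (sub_eq_zero.1 (ι.injective (hb.trans (map_zero ι).symm)))
  have hsurj : Function.Surjective φ :=
    ((Fintype.bijective_iff_injective_and_card φ).2 ⟨hinj, by simp [C.card]⟩).2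
  -- vectors
  let vec : Five.K × Five.K × Five.K → ZMod 3 → F := fun t i =>
    if i = 0 then φ t.1 else if i = 1 then φ t.2.1 else φ t.2.2
  have hherm : ∀ s t, φ (Five.herm s t) = uForm σ (vec s) (vec t) := fun s t => by
    rw [uForm, sum_three, Five.herm, hadd, hadd, hmul, hmul, hmul, hconj, hconj, hconj]
    simp +decide [vec]
  have hcube : ∀ x, φ (Five.cube x) = φ x ^ 3 := fun x => by rw [Five.cube, hmul, hmul]; ring
  obtain ⟨t, ht⟩ : ∃ t : Five.K × Five.K × Five.K, c = vec t := by
    obtain ⟨x, hx⟩ := hsurj (c 0)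
    obtain ⟨y, hy⟩ := hsurj (c 1)
    obtain ⟨z, hz⟩ := hsurj (c 2)
    refine ⟨(x, y, z), funext fun i => ?_⟩
    obtain rfl | rfl | rfl : i = 0 ∨ i = 1 ∨ i = 2 := by clear * - i; revert i; decide
    all_goals simp +decide [vec, hx, hy, hz]
  -- the normalised multiple
  obtain ⟨a, ha, t', ht', hgood⟩ : ∃ a : F, a ≠ 0 ∧ ∃ t', c = a • vec t' ∧ Five.good t' = true := by
    by_cases hx : φ t.1 = 0
    · by_cases hy : φ t.2.1 = 0
      · refine ⟨φ t.2.2, fun hz => hc ?_, _, ?_, Five.check_three⟩
        · simp [uForm, ht, vec, hx, hy, hz]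
        · rw [ht]; funext i
          obtain rfl | rfl | rfl : i = 0 ∨ i = 1 ∨ i = 2 := by clear * - i; revert i; decide
          all_goals simp +decide [vec, hx, hy, h0, h1]
      · obtain ⟨b, hb⟩ := hsurj (φ t.2.2 / φ t.2.1)
        refine ⟨φ t.2.1, hy, _, ?_, Five.check_two b⟩
        rw [ht]; funext i
        obtain rfl | rfl | rfl : i = 0 ∨ i = 1 ∨ i = 2 := by clear * - i; revert i; decide
        all_goals simp +decide [vec, hx, h0, h1, hb]
        field_simp
    · obtain ⟨b, hb⟩ := hsurj (φ t.2.1 / φ t.1)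
      obtain ⟨b', hb'⟩ := hsurj (φ t.2.2 / φ t.1)
      refine ⟨φ t.1, hx, _, ?_, Five.check_one b b'⟩
      rw [ht]; funext i
      obtain rfl | rfl | rfl : i = 0 ∨ i = 1 ∨ i = 2 := by clear * - i; revert i; decide
      all_goals simp +decide [vec, h1, hb, hb']
      all_goals field_simp
  have hv0 : vec t' ≠ 0 := fun h => hc (by simp [ht', h, uForm])
  rw [Five.good] at hgood
  simp only [Bool.or_eq_true, beq_iff_eq, List.any_eq_true] at hgood
  rcases hgood with (h | h) | ⟨e, he, h⟩
  · refine absurd ?_ hc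
    rw [ht', uForm_smul, ← hherm, h, h0, mul_zero]
  · refine absurd ?_ hnb
    rw [ht']
    simp only [Five.base, Bool.or_eq_true, Bool.and_eq_true, beq_iff_eq] at h
    refine ⟨smul_ne_zero ha hv0, ?_⟩
    rcases h with ((⟨e1, e2⟩ | ⟨e1, e2⟩) | ⟨e1, e2⟩) | ⟨e1, e2⟩
    · refine Or.inl ⟨0, fun j hj => ?_⟩
      obtain rfl | rfl | rfl : j = 0 ∨ j = 1 ∨ j = 2 := by clear * - j; revert j; decide
      all_goals first | exact absurd rfl hj | simp +decide [vec, e1, e2, h0]
    · refine Or.inl ⟨1, fun j hj => ?_⟩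
      obtain rfl | rfl | rfl : j = 0 ∨ j = 1 ∨ j = 2 := by clear * - j; revert j; decide
      all_goals first | exact absurd rfl hj | simp +decide [vec, e1, e2, h0]
    · refine Or.inl ⟨2, fun j hj => ?_⟩
      obtain rfl | rfl | rfl : j = 0 ∨ j = 1 ∨ j = 2 := by clear * - j; revert j; decide
      all_goals first | exact absurd rfl hj | simp +decide [vec, e1, e2, h0]
    · refine Or.inr fun i => ?_
      have e1' := congrArg φ e1
      have e2' := congrArg φ e2
      rw [hcube, hcube] at e1' e2'
      obtain rfl | rfl | rfl : i = 0 ∨ i = 1 ∨ i = 2 := by clear * - i; revert i; decide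
      all_goals simp +decide [vec, mul_pow, e1', e2']
  · have hb : IsBase (vec e) := by
      have hw : φ (0, 1) = ω := by change ι 0 + ι 1 * ω = ω; simp
      have hw2 : φ (4, 4) = ω ^ 2 := by
        change ι (-1) + ι (-1) * ω = ω ^ 2
        simp only [map_neg, map_one]
        linear_combination -C.sum_eq
      have axis : ∀ i : ZMod 3, ∀ s, (vec s i = 1) → (∀ j, j ≠ i → vec s j = 0) → IsBase (vec s) :=
        fun i s hi hj => isBase_axis i (by rw [hi]; exact one_ne_zero) hj
      have full : ∀ u ∈ ([((1, 0) : Five.K), (0, 1), (4, 4)]), φ u ^ 3 = 1 := by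
        intro u hu
        fin_cases hu
        · rw [h1, one_pow]
        · rw [hw, C.pow_three]
        · rw [hw2, ← pow_mul, mul_comm, pow_mul, C.pow_three, one_pow]
      simp only [Five.pts, List.mem_append, List.mem_flatMap, List.mem_map] at he
      rcases he with he | ⟨u, hu, v, hv, rfl⟩
      · fin_cases he
        · refine axis 0 _ (by simp [vec, h1]) fun j hj => ?_
          obtain rfl | rfl | rfl : j = 0 ∨ j = 1 ∨ j = 2 := by clear * - j; revert j; decide
          all_goals first | exact absurd rfl hj | simp +decide [vec, h0]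
        · refine axis 1 _ (by simp +decide [vec, h1]) fun j hj => ?_
          obtain rfl | rfl | rfl : j = 0 ∨ j = 1 ∨ j = 2 := by clear * - j; revert j; decide
          all_goals first | exact absurd rfl hj | simp +decide [vec, h0]
        · refine axis 2 _ (by simp +decide [vec, h1]) fun j hj => ?_
          obtain rfl | rfl | rfl : j = 0 ∨ j = 1 ∨ j = 2 := by clear * - j; revert j; decide
          all_goals first | exact absurd rfl hj | simp +decide [vec, h0]
      · refine ⟨fun hz => one_ne_zero (α := F) ?_, Or.inr fun i => ?_⟩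
        · simpa [vec, h1] using congrFun hz 0
        · obtain rfl | rfl | rfl : i = 0 ∨ i = 1 ∨ i = 2 := by clear * - i; revert i; decide
          all_goals simp +decide [vec, h1, full u hu, full v hv]
    obtain ⟨g, hg, b, hgb⟩ := exists_gen_base C hb
    have hb0 : b ≠ 0 := by rintro rfl; exact hb.1 (hgb.trans (zero_smul _ _))
    refine ⟨g⁻¹, inv_mem hg, ?_⟩
    have he' : uForm σ (vec t') (ap g (Pi.single 0 1)) = ap g⁻¹ (vec t') 0 := by
      have := G25_le_UU C hg (ap g⁻¹ (vec t')) (Pi.single 0 1)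
      change uForm σ (ap g _) (ap g _) = _ at this
      rw [ap_ap_inv] at this
      rw [this, uForm, sum_three]
      simp +decide
    have h' := congrArg φ h
    have h3 : φ (3, 0) = 3 := by
      change ι 3 + ι 0 * ω = 3
      rw [map_ofNat, map_zero, zero_mul, add_zero]
    rw [hmul, hconj, hmul, hmul, hherm, hherm, hherm, h3, hgb] at h'
    have e1 := uForm_smul σ (1 : F) b (vec t') (ap g (Pi.single 0 1))
    rw [one_smul, one_mul, he'] at e1
    have e2 : uForm σ (ap g (Pi.single 0 1)) (ap g (Pi.single 0 1)) = 1 := by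
      exact (G25_le_UU C hg (Pi.single 0 1) (Pi.single 0 1)).trans (uForm_e0 σ)
    rw [e1, uForm_smul, e2, map_mul, C.involutive, mul_one] at h'
    have hsb : σ b ≠ 0 := by simpa using hb0
    have key : ap g⁻¹ (vec t') 0 * σ (ap g⁻¹ (vec t') 0) = 3 * uForm σ (vec t') (vec t') :=
      mul_left_cancel₀ (mul_ne_zero hb0 hsb) (by linear_combination h')
    rw [ht', ap_smul, uForm_smul, Pi.smul_apply, smul_eq_mul, map_mul]
    linear_combination (a * σ a) * key

end CfsgLib.Geometric.SUNine
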