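import Cfsg.Agent.Lib.Geometric.SLNine.Transport
import Cfsg.Agent.Lib.Geometric.SLNine.Model
import Cfsg.Agent.Lib.Geometric.SUNine.Gen
import Cfsg.Agent.Lib.Geometric.UnitaryTensor
import Cfsg.Prelude.Def_LieClassical

/-!
Maximality of the normaliser of an extraspecial group of order `3⁵` in `SU₉(p)`, given maximality of
the normaliser of the standard Pauli group in the unitary group of the standard form.
-/

set_option autoImplicit false
set_option linter.style.haveILetI false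
set_option linter.unusedSectionVars false

namespace CfsgLib.Geometric.SUNine

open Cfsg.Geo Matrix CfsgLib.Geometric.SLNine
open scoped Matrix

variable {F : Type*} [Field F]

/-- A form invariant under the Pauli matrices is a multiple of the standard one. -/
theorem eq_mul_uForm {σ : F ≃+* F} {ω : F} (hω : IsPrimitiveRoot ω 3) (hσω : σ ω = ω ^ 2)
    {B : (J9 → F) → (J9 → F) → F} (hB : IsUnitaryForm σ B)
    (hinv : ∀ v x y, B (T9 ω v *ᵥ x) (T9 ω v *ᵥ y) = B x y) :
    ∃ γ : F, γ ≠ 0 ∧ ∀ x y, B x y = γ * uForm σ x y := by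
  classical
  have hc := hω.pow_eq_one
  have hsr : ∀ (c : F) (v x : J9 → F), B v (c • x) = σ c * B v x := fun c v x => by
    rw [hB.herm, hB.smul_left, map_mul, ← hB.herm]
  have har : ∀ x y v : J9 → F, B v (x + y) = B v x + B v y := fun x y v => by
    rw [hB.herm, hB.add_left, map_add, ← hB.herm, ← hB.herm]
  have hgram : ∀ x y, B x y = formOfGram (σ : F →+* F) (gramMatrix B) x y :=
    eq_formOfGram hB.add_left hB.smul_left har hsr
  have hσph : ∀ a : ZMod 3, σ (ph ω a) = ph ω (-a) := fun a => by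
    rcases zmod_cases a with rfl | rfl | rfl
    · simp
    · rw [ph_one, hσω, show (-1 : ZMod 3) = 2 from rfl, ph_two]
    · rw [ph_two, map_pow, hσω, show (-2 : ZMod 3) = 1 from rfl, ph_one, ← pow_mul, pow_succ, hc,
        one_mul]
  have hT : ∀ (v : V9) (j : J9), T9 ω v *ᵥ (Pi.single j 1 : J9 → F) =
      ph ω (v.1.2 * j.1 + v.2.2 * j.2) • Pi.single (j + (v.1.1, v.2.1)) 1 := by
    intro v j
    funext i
    rw [mulVec_single_one, Pi.smul_apply, smul_eq_mul, Pi.single_apply]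
    show T9 ω v i j = _
    rw [SLNine.T9_apply hc]
    split_ifs <;> simp
  have key : ∀ (v : V9) (i j : J9), gramMatrix B (i + (v.1.1, v.2.1)) (j + (v.1.1, v.2.1)) *
      ph ω ((v.1.2 * i.1 + v.2.2 * i.2) - (v.1.2 * j.1 + v.2.2 * j.2)) = gramMatrix B i j := by
    intro v i j
    have h := hinv v (Pi.single i 1) (Pi.single j 1)
    rw [hT, hT, hB.smul_left, hsr, hσph] at h
    rw [sub_eq_add_neg, ph_add hc]
    unfold gramMatrix
    linear_combination h
  have hoff : ∀ i j, i ≠ j → gramMatrix B i j = 0 := by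
    intro i j hij
    obtain ⟨b, d, hbd⟩ : ∃ b d : ZMod 3, (b * i.1 + d * i.2) - (b * j.1 + d * j.2) ≠ 0 := by
      by_contra h
      push Not at h
      refine hij (Prod.ext ?_ ?_)
      · have := h 1 0; simpa [sub_eq_zero] using this
      · have := h 0 1; simpa [sub_eq_zero] using this
    have h := key ((0, b), (0, d)) i j
    simp only [Prod.mk_zero_zero, add_zero] at h
    by_contra hne
    exact hbd ((ph_eq_one_iff hω).1 (mul_left_cancel₀ hne (h.trans (mul_one _).symm)))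
  have hdiag : ∀ i, gramMatrix B i i = gramMatrix B 0 0 := by
    intro i
    have h := key ((i.1, 0), (i.2, 0)) 0 0
    simpa using h
  have hB' : ∀ x y, B x y = gramMatrix B 0 0 * uForm σ x y := by
    intro x y
    rw [hgram, formOfGram, uForm, Finset.mul_sum]
    refine Finset.sum_congr rfl fun i _ => ?_
    rw [Finset.sum_eq_single i]
    · rw [hdiag]; simp only [RingHom.coe_coe]; ring
    · intro j _ hj; rw [hoff i j (Ne.symm hj)]; ring
    · simp
  refine ⟨_, fun h0 => ?_, hB'⟩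
  obtain ⟨⟨x, hx⟩, -⟩ := hB.nondegenerate (Pi.single 0 1) (by simp)
  exact hx (by rw [hB', h0, zero_mul])

/-- A signed transposition of two coordinates lies outside the normaliser. -/
theorem exists_notMem_N9 (σ : F ≃+* F) {ω : F} (hω : IsPrimitiveRoot ω 3) :
    ∃ g ∈ UU J9 σ ⊓ specialLinear J9 F, g ∉ N9 ω := by
  have hc := hω.pow_eq_one
  set τ : Equiv.Perm J9 := Equiv.swap (0, 0) (1, 0) with hτ
  refine ⟨pmHom τ, Subgroup.mem_inf.2 ⟨?_, SLNine.mem_specialLinear.mpr (det_pmat τ)⟩, fun hg => ?_⟩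
  · rw [mem_UU_iff]
    ext i j
    change ((pmat (F := F) τ)ᵀ * (pmat τ).map σ) i j = _
    rw [Matrix.mul_apply, Finset.sum_eq_single (τ i)]
    · simp only [pmat, transpose_apply, map_apply, of_apply, Matrix.one_apply, if_true,
        EmbeddingLike.apply_eq_iff_eq]
      rcases Int.units_eq_one_or (Equiv.Perm.sign τ) with h | h <;>
        split_ifs <;> simp [h]
    · intro x _ hx; simp [pmat, hx]
    · simp
  obtain ⟨w, c, hw⟩ := hg.1 ((0, 1), (0, 0))
  change pmat τ * _ = c • (_ * pmat τ) at hw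
  have hs : (Equiv.Perm.sign τ : Units ℤ) = -1 := Equiv.Perm.sign_swap (by decide)
  have E : ∀ p q : J9, (if p = τ q then (1 : F) else 0) * ph ω q.1 =
      c * (ph ω (w.1.2 * (p.1 - w.1.1)) * ph ω (w.2.2 * (p.2 - w.2.1)) *
        if (p.1 - w.1.1, p.2 - w.2.1) = τ q then 1 else 0) := by
    intro p q
    have := congrFun (congrFun hw p) q
    rw [Matrix.smul_apply, smul_eq_mul, SLNine.Frame.mul_T9_entry, SLNine.Frame.T9_mul_entry] at this
    simp only [pmat, of_apply, hs, zero_mul, add_zero, ph_zero, mul_one, one_mul, Units.val_neg,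
      Units.val_one, Int.cast_neg, Int.cast_one, Prod.mk.eta] at this
    split_ifs at this ⊢ <;> linear_combination -this
  have e1 := E (0, 1) (0, 1)
  have t01 : τ (0, 1) = (0, 1) := by rw [hτ]; decide
  have t02 : τ (0, 2) = (0, 2) := by rw [hτ]; decide
  have t10 : τ (1, 0) = (0, 0) := by rw [hτ]; decide
  simp only [t01, if_true, ph_zero, one_mul] at e1
  have hs0 : w.1.1 = 0 ∧ w.2.1 = 0 := by
    by_contra h
    rw [if_neg fun e => h (by
      simp only [Prod.mk.injEq] at e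
      exact ⟨by simpa using e.1, by simpa using e.2⟩), mul_zero, mul_zero] at e1
    exact one_ne_zero e1
  have e2 := E (0, 2) (0, 2)
  have e3 := E (0, 0) (1, 0)
  have h1 := E (0, 1) (0, 1)
  simp only [hs0.1, hs0.2, t01, t02, t10, sub_zero, if_true, mul_zero, ph_zero, one_mul, mul_one]
    at h1 e2 e3
  rw [show ph ω (1 : ZMod 3) = ω from ph_one] at e3
  have h22 : ph ω (w.2.2 * 2) = ph ω w.2.2 * ph ω w.2.2 := by rw [← ph_add hc, mul_two]
  rw [h22] at e2
  have hc1 : c = 1 := by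
    have h0 : ph ω w.2.2 = 1 := by
      have : c * ph ω w.2.2 * (ph ω w.2.2 - 1) = 0 := by linear_combination h1 - e2
      rcases mul_eq_zero.1 this with h | h
      · rw [h] at h1; exact absurd h1 one_ne_zero
      · exact sub_eq_zero.1 h
    rw [h0, mul_one] at h1
    exact h1.symm
  exact hω.ne_one (by norm_num) (e3.trans hc1)

/-- Maximality for every group of extraspecial type, from the statement for the standard one. -/
theorem isMaximalIn_of_core [Fintype F] {q : ℕ} (hF : Fintype.card F = q ^ 2)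
    (core : ∀ (p : ℕ), p.Prime → q = p → p % 3 = 2 → ∀ (σ : F ≃+* F), (∀ x, σ x = x ^ p) →
      ∀ (ω : F), IsPrimitiveRoot ω 3 → ∀ M : Subgroup (GL J9 F),
        N9 ω ⊓ (UU J9 σ ⊓ specialLinear J9 F) ≤ M → M ≤ UU J9 σ ⊓ specialLinear J9 F →
        M ≤ N9 ω ∨ UU J9 σ ⊓ specialLinear J9 F ≤ M) :
    ∀ (p : ℕ) (R : Subgroup (Matrix.GeneralLinearGroup (Fin 9) F)), p.Prime → q = p → p % 3 = 2 →
      IsSymplecticTypeGroup 3 R → ActsAbsolutelyIrreducibly (matrixSet R) →
      R ≤ similarityGroup (Cfsg.hermForm 9 F q) → Nat.card R = 243 →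
      Nat.card (Subgroup.center R) = 3 →
      IsMaximalIn (Cfsg.GU 9 F q ⊓ specialLinear (Fin 9) F)
        (subgroupNormalizer R ⊓ (Cfsg.GU 9 F q ⊓ specialLinear (Fin 9) F)) := by
  classical
  intro p R hp hqp hp3 hS hA hsim _ _
  obtain ⟨σ, hσ, hh⟩ := CfsgLib.Geometric.isUnitaryForm_hermForm (F := F) 9 q hF
  subst hqp
  haveI : Fact q.Prime := ⟨hp⟩
  haveI : CharP F q := by
    obtain ⟨r, hr⟩ := CharP.exists F
    haveI := hr
    obtain ⟨⟨n, hn0⟩, hr', hn⟩ := FiniteField.card F r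
    change Fintype.card F = r ^ n at hn
    rw [hF] at hn
    have : r ∣ q := hr'.dvd_of_dvd_pow (n := 2) (by rw [hn]; exact dvd_pow_self r hn0.ne')
    rwa [← (Nat.prime_dvd_prime_iff_eq hr' hp).1 this]
  have h3 : (3 : F) ≠ 0 := by
    intro h
    have := (CharP.cast_eq_zero_iff F q 3).1 (by exact_mod_cast h)
    rcases (Nat.dvd_prime Nat.prime_three).1 this with h' | h'
    · exact hp.one_lt.ne' h'
    · omega
  obtain ⟨ω, hω⟩ : ∃ ω : F, IsPrimitiveRoot ω 3 := by
    obtain ⟨x, hx⟩ := IsCyclic.exists_generator (α := Fˣ)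
    have ho : orderOf x = q ^ 2 - 1 := by
      rw [orderOf_eq_card_of_forall_mem_zpowers hx, Nat.card_units, Nat.card_eq_fintype_card, hF]
    have hx' : IsPrimitiveRoot ((x : F)) (q ^ 2 - 1) := by
      rw [← ho, ← orderOf_units]; exact IsPrimitiveRoot.orderOf _
    have hd : 3 ∣ q ^ 2 - 1 := by
      have : q ^ 2 % 3 = 1 := by rw [Nat.pow_mod, hp3]
      omega
    refine ⟨(x : F) ^ ((q ^ 2 - 1) / 3), hx'.pow ?_ ?_⟩
    · have : 2 ^ 2 ≤ q ^ 2 := Nat.pow_le_pow_left hp.two_le 2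
      omega
    · exact (Nat.div_mul_cancel hd).symm
  have hσω : σ ω = ω ^ 2 := by
    rw [hσ, pow_eq_pow_mod _ hω.pow_eq_one, hp3]
  obtain ⟨φ, L, hφ, hdet, hR, hT, hN⟩ :=
    SLNine.Frame.exists_frame_coord hω h3 (by simp) hS hA
  set B : (J9 → F) → (J9 → F) → F := fun x y => Cfsg.hermForm 9 F q (L x) (L y) with hBdef
  have hB : IsUnitaryForm σ B := by
    refine ⟨hh.ne_refl, hh.involutive, fun x y v => ?_, fun c x v => ?_, fun v w => hh.herm _ _,
      fun v hv => ?_⟩
    · simp only [hBdef, map_add, hh.add_left]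
    · simp only [hBdef, map_smul, hh.smul_left]
    · obtain ⟨⟨x, hx⟩, ⟨y, hy⟩⟩ := hh.nondegenerate (L v) (fun e => hv (L.map_eq_zero_iff.1 e))
      refine ⟨⟨L.symm x, ?_⟩, ⟨L.symm y, ?_⟩⟩
      · simpa [hBdef] using hx
      · simpa [hBdef] using hy
  have hgu : ∀ g : GL J9 F, φ g ∈ Cfsg.GU 9 F q ↔
      ∀ x y, B ((g : Matrix J9 J9 F) *ᵥ x) ((g : Matrix J9 J9 F) *ᵥ y) = B x y := by
    intro g
    constructor
    · intro hg x y
      simp only [hBdef, ← hφ]
      exact hg _ _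
    · intro hg u v
      obtain ⟨x, rfl⟩ := L.surjective u
      obtain ⟨y, rfl⟩ := L.surjective v
      simp only [Units.coeHom_apply, hφ]
      exact hg x y
  have hinv : ∀ v x y, B (T9 ω v *ᵥ x) (T9 ω v *ᵥ y) = B x y := by
    intro v
    obtain ⟨g, hg, hgR⟩ := hT v
    obtain ⟨c, hcs⟩ := hsim hgR
    have e : ∀ x y, B (T9 ω v *ᵥ x) (T9 ω v *ᵥ y) = (c : F) * B x y := by
      intro x y
      simp only [hBdef, ← hg, ← hφ]
      exact hcs _ _
    obtain ⟨⟨x₀, hx₀⟩, -⟩ := hB.nondegenerate (Pi.single 0 1) (by simp)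
    suffices (c : F) = 1 by intro x y; rw [e, this, one_mul]
    have hσc : σ (c : F) = c := by
      have h1 := e x₀ (Pi.single 0 1)
      have h2 := congrArg σ (e (Pi.single 0 1) x₀)
      rw [map_mul, ← hB.herm, ← hB.herm, h1] at h2
      exact (mul_right_cancel₀ hx₀ h2).symm
    have hc3 : (c : F) ^ 3 = 1 := by
      have hcube : ∀ x : J9 → F, T9 ω v *ᵥ (T9 ω v *ᵥ (T9 ω v *ᵥ x)) = x := fun x => by
        rw [mulVec_mulVec, mulVec_mulVec, T9_cube hω.pow_eq_one, one_mulVec]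
      have h1 : B x₀ (Pi.single 0 1) = (c : F) ^ 3 * B x₀ (Pi.single 0 1) := by
        conv_lhs => rw [← hcube x₀, ← hcube (Pi.single 0 1)]
        rw [e, e, e]; ring
      exact (mul_right_cancel₀ hx₀ (h1.symm.trans (one_mul _).symm))
    rw [hσ, pow_eq_pow_mod _ hc3, hp3, pow_two] at hσc
    exact mul_left_cancel₀ c.ne_zero (hσc.trans (mul_one _).symm)
  obtain ⟨γ, hγ, hBγ⟩ := eq_mul_uForm hω hσω hB hinv
  have hUU : ∀ g, φ g ∈ Cfsg.GU 9 F q ↔ g ∈ UU J9 σ := by
    intro g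
    rw [hgu]
    simp only [hBγ]
    exact ⟨fun h x y => mul_left_cancel₀ hγ (h x y), fun h x y => congrArg (γ * ·) (h x y)⟩
  obtain ⟨g, hg, hgN⟩ := exists_notMem_N9 σ hω
  have hmem : ∀ x, φ x ∈ Cfsg.GU 9 F q ⊓ specialLinear (Fin 9) F ↔
      x ∈ UU J9 σ ⊓ specialLinear J9 F := fun x => by
    rw [Subgroup.mem_inf, Subgroup.mem_inf, hUU, hdet]
  refine ⟨lt_of_le_of_ne inf_le_right fun he => hgN ?_, fun M hM1 hM2 => ?_⟩
  · have : φ g ∈ subgroupNormalizer R ⊓ (Cfsg.GU 9 F q ⊓ specialLinear (Fin 9) F) :=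
      he.symm ▸ (hmem g).2 hg
    exact (hN g).1 this.1
  · have h1 : N9 ω ⊓ (UU J9 σ ⊓ specialLinear J9 F) ≤ M.comap φ.toMonoidHom := fun x hx =>
      hM1 ⟨(hN x).2 hx.1, (hmem x).2 hx.2⟩
    have h2 : M.comap φ.toMonoidHom ≤ UU J9 σ ⊓ specialLinear J9 F := fun x hx => (hmem x).1 (hM2 hx)
    rcases core q hp rfl hp3 σ hσ ω hω _ h1 h2 with h | h
    · refine Or.inl (le_antisymm (fun y hy => ⟨?_, hM2 hy⟩) hM1)
      obtain ⟨x, rfl⟩ := φ.surjective y
      exact (hN x).2 (h hy)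
    · refine Or.inr (le_antisymm hM2 fun y hy => ?_)
      obtain ⟨x, rfl⟩ := φ.surjective y
      exact h ((hmem x).1 hy)

end CfsgLib.Geometric.SUNine
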