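import Cfsg.Agent.Lib.Geometric.SUNine.AmbSU
import Cfsg.Agent.Lib.Geometric.SUNine.Transport
import Cfsg.Agent.Lib.Geometric.SUNine.Two.Main
import Cfsg.Agent.Lib.Geometric.SLNine.Main
import Cfsg.Agent.Lib.Geometric.SLThree.NormalR

/-!
The extraspecial item of `SU₉(p)`.
-/

set_option autoImplicit false

namespace CfsgLib.Geometric.SUNine

open Cfsg.Geo CfsgLib.Geometric.SLNine

/-- The item for symplectic type groups of order `3⁵`. -/
theorem extraspecial_isMaximalIn {F : Type*} [Field F] [Fintype F] {q : ℕ}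
    (hF : Fintype.card F = q ^ 2) :
    ∀ (p : ℕ) (R : Subgroup (Matrix.GeneralLinearGroup (Fin 9) F)), p.Prime → q = p → p % 3 = 2 →
      IsSymplecticTypeGroup 3 R → ActsAbsolutelyIrreducibly (matrixSet R) →
      R ≤ similarityGroup (Cfsg.hermForm 9 F q) → Nat.card R = 243 →
      Nat.card (Subgroup.center R) = 3 →
      IsMaximalIn (Cfsg.GU 9 F q ⊓ specialLinear (Fin 9) F)
        (subgroupNormalizer R ⊓ (Cfsg.GU 9 F q ⊓ specialLinear (Fin 9) F)) := by
  refine isMaximalIn_of_core hF fun p hp hqp hp3 σ hσ ω hω M hNM hMG => ?_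
  subst hqp
  by_cases h2 : q = 2
  · subst h2
    exact Two.two_le_norm (by rw [hF]; norm_num) hσ hω M hNM hMG
  have h5 : 5 ≤ q := by
    have := hp.two_le
    by_contra h
    interval_cases q <;> simp_all
  have C : UCtx σ ω q := ⟨hp, hp3, hF, hσ, hω⟩
  by_cases hGM : UU J9 σ ⊓ specialLinear J9 F ≤ M
  · exact Or.inr hGM
  · exact Or.inl (le_norm (A := ambSU C h5 fun _ _ _ hH => hH.le_normalizer)
      ⟨hω, two_ne C h5, C.three_ne, hMG, hNM, hGM⟩)

end CfsgLib.Geometric.SUNine
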