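import Cfsg.Agent.Lib.Involutions.BrauerSuzuki
import Cfsg.Agent.Lib.TwoFusion.TransferMod
import Cfsg.Agent.Lib.CoprimeAction.Abelian
import Cfsg.Agent.Lib.Cores.PCore

/-!
An overgroup `M` of the normaliser `N` of an extraspecial group `R` of order `3⁵` equals `N` as soon
as the centralisers of the non-central elements of `R` lie in `N` and the inverting involution is
isolated: the involution puts `R` into the odd core, and a transfer argument shows that the odd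
core is `R` times scalars.
-/

set_option autoImplicit false
set_option linter.unusedSectionVars false

open Cfsg

namespace CfsgLib.Geometric.SUNine

universe u

variable {M : Type u} [Group M] [Finite M]

/-- In a `p`-group a proper subgroup is normalised by some element outside it. -/
lemma exists_normalizing_outside {p : ℕ} [Fact p.Prime] {H Q : Subgroup M} (hQ : IsPGroup p Q)
    (hle : H ≤ Q) (hne : ¬ Q ≤ H) :
    ∃ g ∈ Q, g ∉ H ∧ g ∈ Subgroup.normalizer (H : Set M) := by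
  haveI : Group.IsNilpotent Q := hQ.isNilpotent
  have hlt : H.subgroupOf Q < ⊤ :=
    lt_top_iff_ne_top.2 fun h => hne (Subgroup.subgroupOf_eq_top.1 h)
  obtain ⟨g, hg, hgH⟩ := SetLike.exists_of_lt (Group.normalizerCondition_of_isNilpotent _ hlt)
  refine ⟨g, g.2, fun h => hgH (Subgroup.mem_subgroupOf.2 h), ?_⟩
  rw [Subgroup.mem_normalizer_iff]
  intro h
  rw [Subgroup.mem_normalizer_iff] at hg
  constructor
  · intro hh
    simpa [Subgroup.mem_subgroupOf] using (hg ⟨h, hle hh⟩).1 (Subgroup.mem_subgroupOf.2 hh)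
  · intro hh
    have hmem : h ∈ Q := by
      have := mul_mem (mul_mem (inv_mem g.2) (hle hh)) g.2
      simpa [mul_assoc] using this
    simpa [Subgroup.mem_subgroupOf] using (hg ⟨h, hmem⟩).2 (Subgroup.mem_subgroupOf.2 hh)

/-- An element killed by coprime powers is trivial. -/
lemma eq_one_of_coprime_pow {G : Type*} [Group G] {x : G} {a b : ℕ} (hc : Nat.Coprime a b)
    (ha : x ^ a = 1) (hb : x ^ b = 1) : x = 1 :=
  orderOf_eq_one_iff.1
    (Nat.eq_one_of_dvd_coprimes hc (orderOf_dvd_of_pow_eq_one ha) (orderOf_dvd_of_pow_eq_one hb))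

/-- Every element lies in `N`. -/
theorem mem_of_local (N R Z C S A : Subgroup M) {J : M}
    (hRN : R ≤ N) (hnorm : ∀ n ∈ N, ∀ r ∈ R, n * r * n⁻¹ ∈ R)
    (hN : ∀ g : M, (∀ r ∈ R, g * r * g⁻¹ ∈ R) → g ∈ N)
    (hR3 : ∀ r ∈ R, r ^ 3 = 1) (hZR : Z ≤ R)
    (hcomm : ∀ r ∈ R, ∀ s ∈ R, r * s * r⁻¹ * s⁻¹ ∈ Z)
    (hAR : A ≤ R) [IsMulCommutative A] (hA : ¬ IsCyclic A) (hAZ : ∀ a ∈ A, a ∈ Z → a = 1)
    (hC : C ≤ Subgroup.center M) (hCN : C ≤ N) (hC3 : IsPGroup 3 C) (hZC : Z ≤ C)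
    (hCZ : ∀ c ∈ C, c ^ 3 = 1 → c ∈ Z)
    (hodd : ∀ W : Subgroup M, W ≤ N → (∀ n ∈ N, ∀ w ∈ W, n * w * n⁻¹ ∈ W) →
      Odd (Nat.card W) → W ≤ R ⊔ C)
    (htrans : ∀ x ∈ R, x ∉ Z → ∀ y ∈ R, y ∉ Z → ∃ n ∈ N, n * x * n⁻¹ = y)
    (hcent : ∀ x ∈ R, x ∉ Z → ∀ g : M, g * x = x * g → g ∈ N)
    (hJ : orderOf J = 2) (hJinv : ∀ r ∈ R, J * r * J⁻¹ * r ∈ Z)
    (hSN : S ≤ N) (hS : IsPGroup 2 S)
    (hSmax : ∀ T : Subgroup M, S ≤ T → T ≤ N → IsPGroup 2 T → T = S)
    (hSnorm : ∀ g : M, g ∈ Subgroup.normalizer (S : Set M) → g ∈ N)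
    (hiso : ∀ g : M, g * J * g⁻¹ ∈ S → g * J * g⁻¹ = J) :
    ∀ g : M, g ∈ N := by
  classical
  haveI : Fact (Nat.Prime 2) := ⟨Nat.prime_two⟩
  haveI : Fact (Nat.Prime 3) := ⟨Nat.prime_three⟩
  -- `S` is a Sylow `2`-subgroup
  obtain ⟨Q, hSQ⟩ := hS.exists_le_sylow
  have hQS : (Q : Subgroup M) = S := by
    refine le_antisymm ?_ hSQ
    by_contra hne
    obtain ⟨g, hgQ, hgS, hgn⟩ := exists_normalizing_outside Q.isPGroup' hSQ hne
    refine hgS ?_
    have hle : S ⊔ Subgroup.zpowers g ≤ Q := sup_le hSQ (Subgroup.zpowers_le.2 hgQ)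
    rw [← hSmax (S ⊔ Subgroup.zpowers g) le_sup_left
      (sup_le hSN (Subgroup.zpowers_le.2 (hSnorm g hgn))) (Q.isPGroup'.to_le hle)]
    exact Subgroup.mem_sup_right (Subgroup.mem_zpowers g)
  have hz := CfsgLib.Involutions.zstar_isolated Q hJ fun g hg => hiso g (hQS ▸ hg)
  set K : Subgroup M := oddCore M with hK
  have hKn : K.Normal := by rw [hK]; infer_instance
  have hcen : ∀ c ∈ C, ∀ x : M, c * x = x * c :=
    fun c hc x => (Subgroup.mem_center_iff.1 (hC hc) x).symm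
  have hCn : C.Normal := ⟨fun c hc x => by rw [← hcen c hc x, mul_inv_cancel_right]; exact hc⟩
  have hCK : C ≤ K := by
    obtain ⟨k, hk⟩ := hC3.exists_card_eq
    haveI := hCn
    exact CfsgLib.Cores.le_oddCore (by rw [hk]; exact (by decide : Odd 3).pow)
  have hRK : R ≤ K := fun r hr => by
    have h1 := hz r
    have h2 : (J * r * J⁻¹ * r) * r = J * r * J⁻¹ * r⁻¹ := by
      have : r * r = r⁻¹ := eq_inv_of_mul_eq_one_left (by rw [← pow_two, ← pow_succ]; exact hR3 r hr)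
      rw [mul_assoc, this]
    have h3 := mul_mem (inv_mem (hCK (hZC (hJinv r hr)))) (h2 ▸ h1)
    rwa [inv_mul_cancel_left] at h3
  -- the part of the odd core in `N`
  set P : Subgroup M := R ⊔ C with hP
  have hPmem : ∀ x, x ∈ P ↔ ∃ r ∈ R, ∃ c ∈ C, r * c = x := fun x => by
    haveI := hCn
    exact Subgroup.mem_sup_of_normal_right
  have hPK : P ≤ K := sup_le hRK hCK
  have hPN : P ≤ N := sup_le hRN hCN
  have hKN : K ⊓ N ≤ P := by
    refine hodd _ inf_le_right (fun n hn w hw => ⟨hKn.conj_mem w hw.1 n,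
      N.mul_mem (N.mul_mem hn hw.2) (N.inv_mem hn)⟩) ?_
    exact Odd.of_dvd_nat CfsgLib.Cores.odd_card_oddCore (Subgroup.card_dvd_of_le inf_le_left)
  have hcube : ∀ r ∈ R, ∀ c ∈ C, (r * c) ^ 3 = c ^ 3 := fun r hr c hc => by
    have h : Commute r c := (hcen c hc r).symm
    rw [h.mul_pow, hR3 r hr, one_mul]
  have hPR : ∀ x ∈ P, x ^ 3 = 1 → x ∈ R := by
    intro x hx h3
    obtain ⟨r, hr, c, hc, rfl⟩ := (hPmem x).1 hx
    rw [hcube r hr c hc] at h3
    exact mul_mem hr (hZR (hCZ c hc h3))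
  have hP3C : ∀ x ∈ P, x ^ 3 ∈ C := by
    intro x hx
    obtain ⟨r, hr, c, hc, rfl⟩ := (hPmem x).1 hx
    rw [hcube r hr c hc]
    exact pow_mem hc 3
  have hPcomm : ∀ x ∈ P, ∀ y ∈ P, x * y * x⁻¹ * y⁻¹ ∈ C := by
    intro x hx y hy
    obtain ⟨r, hr, c, hc, rfl⟩ := (hPmem x).1 hx
    obtain ⟨s, hs, d, hd, rfl⟩ := (hPmem y).1 hy
    have h : (r * c) * (s * d) * (r * c)⁻¹ * (s * d)⁻¹ = r * s * r⁻¹ * s⁻¹ :=
      calc (r * c) * (s * d) * (r * c)⁻¹ * (s * d)⁻¹
          = r * (c * (s * d)) * c⁻¹ * r⁻¹ * d⁻¹ * s⁻¹ := by group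
        _ = r * ((s * d) * c) * c⁻¹ * r⁻¹ * d⁻¹ * s⁻¹ := by rw [hcen c hc]
        _ = r * s * (d * r⁻¹) * d⁻¹ * s⁻¹ := by group
        _ = r * s * (r⁻¹ * d) * d⁻¹ * s⁻¹ := by rw [hcen d hd]
        _ = r * s * r⁻¹ * s⁻¹ := by group
    exact h ▸ hZC (hcomm r hr s hs)
  have hPn : ∀ g : M, g ∈ Subgroup.normalizer (P : Set M) → g ∈ N := fun g hg =>
    hN g fun r hr => hPR _ ((Subgroup.mem_normalizer_iff.1 hg r).1 (Subgroup.mem_sup_left hr))
      (by rw [conj_pow, hR3 r hr, mul_one, mul_inv_cancel])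
  -- fusion in `P` is trivial modulo `C`
  have hfus : ∀ y ∈ P, ∀ a ∈ K, a * y * a⁻¹ ∈ P → y⁻¹ * (a * y * a⁻¹) ∈ C := by
    intro y hy a ha hay
    obtain ⟨r, hr, c, hc, rfl⟩ := (hPmem y).1 hy
    by_cases hrZ : r ∈ Z
    · have : a * (r * c) = (r * c) * a := (hcen _ (mul_mem (hZC hrZ) hc) a).symm
      rw [this, mul_inv_cancel_right, inv_mul_cancel]
      exact one_mem C
    have hr' : a * r * a⁻¹ = (a * (r * c) * a⁻¹) * c⁻¹ := by
      have : a * (r * c) * a⁻¹ = (a * r * a⁻¹) * c :=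
        calc a * (r * c) * a⁻¹ = a * r * (c * a⁻¹) := by group
          _ = a * r * (a⁻¹ * c) := by rw [hcen c hc]
          _ = (a * r * a⁻¹) * c := by group
      rw [this, mul_inv_cancel_right]
    have hr'R : a * r * a⁻¹ ∈ R :=
      hPR _ (hr' ▸ mul_mem hay (inv_mem (Subgroup.mem_sup_right hc)))
        (by rw [conj_pow, hR3 r hr, mul_one, mul_inv_cancel])
    have hr'Z : a * r * a⁻¹ ∉ Z := fun h => hrZ (by
      have h1 : a⁻¹ * (a * r * a⁻¹) = (a * r * a⁻¹) * a⁻¹ := (hcen _ (hZC h) a⁻¹).symm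
      have h2 : r = a * r * a⁻¹ :=
        calc r = a⁻¹ * (a * r * a⁻¹) * a := by group
          _ = (a * r * a⁻¹) * a⁻¹ * a := by rw [h1]
          _ = a * r * a⁻¹ := by group
      rwa [h2])
    obtain ⟨n, hn, hnr⟩ := htrans r hr hrZ _ hr'R hr'Z
    have hna : n⁻¹ * a ∈ N := hcent r hr hrZ _ (by
      calc n⁻¹ * a * r = n⁻¹ * (a * r * a⁻¹) * a := by group
        _ = r * (n⁻¹ * a) := by rw [← hnr]; group)
    have haP : a ∈ P := hKN ⟨ha, by simpa using mul_mem hn hna⟩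
    have h := hPcomm _ (inv_mem hy) a haP
    simpa [mul_assoc] using h
  -- `P` is a Sylow `3`-subgroup of the odd core
  let H : Subgroup K := P.subgroupOf K
  have hH3 : IsPGroup 3 H := by
    rintro ⟨⟨x, hxK⟩, hx⟩
    obtain ⟨k, hk⟩ := hC3 ⟨x ^ 3, hP3C x hx⟩
    refine ⟨k + 1, Subtype.ext (Subtype.ext ?_)⟩
    simpa [pow_succ', pow_mul] using congrArg Subtype.val hk
  obtain ⟨T, hHT⟩ := hH3.exists_le_sylow
  have hTH : (T : Subgroup K) = H := by
    refine le_antisymm ?_ hHT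
    by_contra hne
    obtain ⟨g, hgT, hgH, hgn⟩ := exists_normalizing_outside T.isPGroup' hHT hne
    refine hgH (Subgroup.mem_subgroupOf.2 (hKN ⟨g.2, hPn g ?_⟩))
    rw [Subgroup.mem_normalizer_iff]
    intro h
    constructor
    · intro hh
      simpa [H, Subgroup.mem_subgroupOf] using
        (Subgroup.mem_normalizer_iff.1 hgn ⟨h, hPK hh⟩).1 (Subgroup.mem_subgroupOf.2 hh)
    · intro hh
      have hhK : h ∈ K := by
        have := hKn.conj_mem _ (hPK hh) (g : M)⁻¹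
        simpa [mul_assoc] using this
      simpa [H, Subgroup.mem_subgroupOf] using
        (Subgroup.mem_normalizer_iff.1 hgn ⟨h, hhK⟩).2 (Subgroup.mem_subgroupOf.2 hh)
  have hidx : ¬ 3 ∣ H.index := hTH ▸ T.not_dvd_index
  -- transfer to `P ⧸ C`
  haveI : (C.subgroupOf P).Normal := hCn.subgroupOf P
  letI : CommGroup (P ⧸ C.subgroupOf P) :=
    { (inferInstance : Group (P ⧸ C.subgroupOf P)) with
      mul_comm := fun x y => by
        induction x using QuotientGroup.induction_on with | _ a =>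
        induction y using QuotientGroup.induction_on with | _ b =>
        rw [← QuotientGroup.mk_mul, ← QuotientGroup.mk_mul, QuotientGroup.eq, Subgroup.mem_subgroupOf]
        have h := hPcomm _ (inv_mem b.2) _ (inv_mem a.2)
        simpa [mul_assoc] using h }
  let φ : H →* P ⧸ C.subgroupOf P :=
    (QuotientGroup.mk' (C.subgroupOf P)).comp (Subgroup.subgroupOfEquivOfLe hPK).toMonoidHom
  have hφ : ∀ x : H, φ x = 1 ↔ ((x : K) : M) ∈ C := fun x => by
    simp [φ, QuotientGroup.eq_one_iff, Subgroup.mem_subgroupOf, Subgroup.subgroupOfEquivOfLe]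
  have hv : ∀ (g : K) (hg : g ∈ H), φ.transfer g = φ ⟨g, hg⟩ ^ H.index := by
    refine fun g hg => CfsgLib.TwoFusion.transfer_eq_pow_of_controlled φ g hg fun m a h => ?_
    rw [← map_pow, ← inv_mul_eq_one.trans eq_comm, ← map_inv, ← map_mul, hφ]
    exact hfus _ (pow_mem (Subgroup.mem_subgroupOf.1 hg) m) _ a.2 (Subgroup.mem_subgroupOf.1 h)
  have hQ3 : ∀ x : P ⧸ C.subgroupOf P, x ^ 3 = 1 := fun x => by
    induction x using QuotientGroup.induction_on with | _ a =>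
    rw [← QuotientGroup.mk_pow, QuotientGroup.eq_one_iff, Subgroup.mem_subgroupOf]
    exact hP3C _ a.2
  have hker : ∀ g : K, g ∈ H → φ.transfer g = 1 → (g : M) ∈ C := fun g hg h1 => by
    rw [hv g hg] at h1
    have h2 : φ ⟨g, hg⟩ = 1 := eq_one_of_coprime_pow
      (((Nat.Prime.coprime_iff_not_dvd Nat.prime_three).2 hidx).symm) h1 (hQ3 _)
    exact (hφ _).1 h2
  -- the kernel
  let K₁ : Subgroup K := φ.transfer.ker
  let C₁ : Subgroup K₁ := (C.subgroupOf K).subgroupOf K₁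
  have hCK₁ : C.subgroupOf K ≤ K₁ := fun c hc => by
    have hcH : c ∈ H :=
      Subgroup.mem_subgroupOf.2 (Subgroup.mem_sup_right (Subgroup.mem_subgroupOf.1 hc))
    rw [MonoidHom.mem_ker, hv c hcH, (hφ _).2 (Subgroup.mem_subgroupOf.1 hc), one_pow]
  have hC₁idx : ¬ 3 ∣ C₁.index := by
    have heq : C₁ = H.subgroupOf K₁ := by
      ext x
      simp only [C₁, Subgroup.mem_subgroupOf]
      refine ⟨fun h => Subgroup.mem_sup_right h, fun h => ?_⟩
      exact hker x (Subgroup.mem_subgroupOf.2 h) x.2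
    rw [heq]
    refine fun h => hidx (h.trans ?_)
    show H.relIndex K₁ ∣ H.index
    obtain ⟨t, ht⟩ := Subgroup.relIndex_dvd_index_of_normal K₁ H
    have h1 : (H ⊓ K₁).index = K₁.index * H.relIndex K₁ := by
      rw [← Subgroup.relIndex_mul_index (inf_le_right : H ⊓ K₁ ≤ K₁), Subgroup.inf_relIndex_right,
        mul_comm]
    have h2 : (H ⊓ K₁).index = H.index * K₁.relIndex H := by
      rw [← Subgroup.relIndex_mul_index (inf_le_left : H ⊓ K₁ ≤ H), Subgroup.inf_relIndex_left,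
        mul_comm]
    refine ⟨t, Nat.eq_of_mul_eq_mul_left (n := K₁.relIndex H)
      (Nat.pos_of_ne_zero Subgroup.index_ne_zero_of_finite) ?_⟩
    rw [← mul_assoc, mul_comm _ H.index, ← h2, h1, ht]
    ring
  letI : CommGroup C₁ :=
    { (inferInstance : Group C₁) with
      mul_comm := fun x y => by
        apply Subtype.ext; apply Subtype.ext; apply Subtype.ext
        exact hcen _ x.2 _ }
  let τ := (MonoidHom.id C₁).transfer
  have hτ : ∀ (g : K₁) (hg : g ∈ C₁), τ g = ⟨g, hg⟩ ^ C₁.index := by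
    refine fun g hg => CfsgLib.TwoFusion.transfer_eq_pow_of_controlled _ g hg fun m a h => ?_
    apply Subtype.ext; apply Subtype.ext; apply Subtype.ext
    simp only [MonoidHom.id_apply, SubgroupClass.coe_pow, Subgroup.coe_mul, Subgroup.coe_inv]
    have hgC : ((g : K) : M) ^ m ∈ C := pow_mem (hg : ((g : K) : M) ∈ C) m
    exact (congrArg (· * ((a : K) : M)⁻¹) (hcen _ hgC _).symm).trans (mul_inv_cancel_right _ _)
  have hC₁p : IsPGroup 3 C₁ := fun x => by
    obtain ⟨k, hk⟩ := hC3 ⟨_, x.2⟩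
    exact ⟨k, Subtype.ext (Subtype.ext (Subtype.ext (by simpa using congrArg Subtype.val hk)))⟩
  have hτinj : ∀ c : C₁, c ^ C₁.index = 1 → c = 1 := fun c hc => by
    obtain ⟨k, hk⟩ := hC₁p c
    have hcop : Nat.Coprime C₁.index (3 ^ k) :=
      (((Nat.Prime.coprime_iff_not_dvd Nat.prime_three).2 hC₁idx).pow_left k).symm
    exact eq_one_of_coprime_pow hcop hc hk
  have hτker : Nat.card τ.ker = C₁.index := by
    have hsurj : Function.Surjective τ := by
      have hinj : Function.Injective fun c : C₁ => τ c := fun c d h => by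
        simp only [hτ _ c.2, hτ _ d.2, Subtype.coe_eta] at h
        exact mul_inv_eq_one.1 (hτinj _ (by rw [mul_pow, inv_pow, h, mul_inv_cancel]))
      intro c
      obtain ⟨d, hd⟩ := (Finite.injective_iff_surjective.1 hinj) c
      exact ⟨d, hd⟩
    have h1 := τ.ker.card_mul_index
    rw [Subgroup.index_ker, MonoidHom.range_eq_top.2 hsurj, Subgroup.card_top,
      ← C₁.card_mul_index, mul_comm] at h1
    exact Nat.eq_of_mul_eq_mul_left Nat.card_pos h1
  let D : Subgroup M := (τ.ker.map K₁.subtype).map K.subtype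
  have hDcard : Nat.card D = C₁.index := by
    rw [Subgroup.card_map_of_injective K.subtype_injective,
      Subgroup.card_map_of_injective K₁.subtype_injective, hτker]
  have hDmem : ∀ x : M, x ∈ D ↔ ∃ h : x ∈ K, (⟨x, h⟩ : K) ∈ K₁ ∧ x ^ C₁.index = 1 := by
    intro x
    constructor
    · intro hx
      have hpow : x ^ C₁.index = 1 := hDcard ▸ by
        exact congrArg Subtype.val (pow_card_eq_one' (x := (⟨x, hx⟩ : D)))
      obtain ⟨y, hy, rfl⟩ := hx
      obtain ⟨z, -, rfl⟩ := hy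
      exact ⟨z.1.2, z.2, hpow⟩
    · rintro ⟨hx, hx1, hxi⟩
      refine ⟨⟨x, hx⟩, ⟨⟨⟨x, hx⟩, hx1⟩, ?_, rfl⟩, rfl⟩
      refine MonoidHom.mem_ker.2 (hτinj _ ?_)
      rw [← map_pow]
      convert map_one τ
      exact Subtype.ext (Subtype.ext hxi)
  have hAD : A ≤ Subgroup.normalizer (D : Set M) := fun a ha => by
    have key : ∀ b ∈ A, ∀ x ∈ D, b * x * b⁻¹ ∈ D := fun b hb x hx => by
      obtain ⟨hxK, hx1, hxi⟩ := (hDmem x).1 hx
      have hbK : b ∈ K := hRK (hAR hb)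
      refine (hDmem _).2 ⟨mul_mem (mul_mem hbK hxK) (inv_mem hbK), ?_, ?_⟩
      · exact (inferInstance : K₁.Normal).conj_mem _ hx1 ⟨b, hbK⟩
      · rw [conj_pow, hxi, mul_one, mul_inv_cancel]
    rw [Subgroup.mem_normalizer_iff]
    refine fun x => ⟨key a ha x, fun h => ?_⟩
    simpa [mul_assoc] using key a⁻¹ (inv_mem ha) _ h
  have hA3 : IsPGroup 3 A := fun a => ⟨1, Subtype.ext (by simpa using hR3 a (hAR a.2))⟩
  have hcop : (Nat.card A).Coprime (Nat.card D) := by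
    obtain ⟨k, hk⟩ := hA3.exists_card_eq
    rw [hk, hDcard]
    exact ((Nat.Prime.coprime_iff_not_dvd Nat.prime_three).2 hC₁idx).pow_left k
  have hD1 : D ≤ ⊥ := by
    refine CfsgLib.CoprimeAction.le_of_centralizers (A := A) hA hAD hcop fun a ha ha1 x hx => ?_
    obtain ⟨hxD, hxc⟩ := hx
    have hxN : x ∈ N := hcent a (hAR ha) (fun h => ha1 (hAZ a ha h)) x
      (Subgroup.mem_centralizer_iff.1 hxc a rfl).symm
    obtain ⟨hxK, hx1, hxi⟩ := (hDmem x).1 hxD
    have hxP : x ∈ P := hKN ⟨hxK, hxN⟩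
    obtain ⟨k, hk⟩ := hH3 ⟨⟨x, hxK⟩, hxP⟩
    have hx3 : x ^ 3 ^ k = 1 := by simpa using congrArg (fun z : H => ((z : K) : M)) hk
    have hc : Nat.Coprime C₁.index (3 ^ k) :=
      (((Nat.Prime.coprime_iff_not_dvd Nat.prime_three).2 hC₁idx).pow_left k).symm
    exact eq_one_of_coprime_pow hc hxi hx3
  have hidx1 : C₁.index = 1 := by
    rw [← hDcard, le_bot_iff.1 hD1, Subgroup.card_bot]
  have hKP : K ≤ P := by
    have hKp : IsPGroup 3 K := fun x => by
      have hx : x ^ 3 ∈ K₁ := by rw [MonoidHom.mem_ker, map_pow]; exact hQ3 _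
      have hxC : (⟨x ^ 3, hx⟩ : K₁) ∈ C₁ := Subgroup.index_eq_one.1 hidx1 ▸ Subgroup.mem_top _
      obtain ⟨k, hk⟩ := hC₁p ⟨_, hxC⟩
      refine ⟨k + 1, Subtype.ext ?_⟩
      simpa [pow_succ', pow_mul] using congrArg (fun z : C₁ => (((z : K₁) : K) : M)) hk
    have hT : (T : Subgroup K) = ⊤ := (T.3 (hKp.to_subgroup ⊤) le_top).symm
    intro x hx
    have : (⟨x, hx⟩ : K) ∈ H := hTH ▸ hT ▸ Subgroup.mem_top _
    exact Subgroup.mem_subgroupOf.1 this
  exact fun g => hN g fun r hr => hPR _ (hKP (hKn.conj_mem r (hRK hr) g))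
    (by rw [conj_pow, hR3 r hr, mul_one, mul_inv_cancel])

end CfsgLib.Geometric.SUNine
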