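import Cfsg.Agent.Lib.CoprimeAction.Abelian
import Cfsg.Agent.Lib.TwoFusion.TransferMod
import Cfsg.Agent.Lib.Geometric.SUNine.Global

/-!
The centraliser `T` of a non-central involution in an overgroup of the normaliser `N` of an
extraspecial group `R` of order `3⁵`: the kernel `K` of its action on a three-dimensional space
lies in `N`, and so do the elements normalising the image of `R' = C_R(t)`.
-/

set_option autoImplicit false
set_option linter.unusedSectionVars false

open Cfsg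

namespace CfsgLib.Geometric.SUNine

universe u

variable {M : Type u} [Group M] [Finite M]

/-- A `3'`-group `D` acted on by `R'`, with `R' / Z` noncyclic abelian, is generated by the
centralisers of the elements of `R'` outside `Z`. -/
lemma le_of_centralizers_mod {R' Z D H : Subgroup M} (hZ : Z ≤ Subgroup.center M) (hZR : Z ≤ R')
    (hR3 : ∀ r ∈ R', r ^ 3 = 1) (hcomm : ∀ r ∈ R', ∀ s ∈ R', r * s * r⁻¹ * s⁻¹ ∈ Z)
    (hR9 : 3 * Nat.card Z < Nat.card R')
    (hRD : R' ≤ Subgroup.normalizer (D : Set M)) (hD3 : ¬ 3 ∣ Nat.card D) (hZH : Z ≤ H)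
    (hcent : ∀ x ∈ R', x ∉ Z → D ⊓ Subgroup.centralizer ({x} : Set M) ≤ H) : D ≤ H := by
  classical
  haveI : Fact (Nat.Prime 3) := ⟨Nat.prime_three⟩
  haveI hZn : Z.Normal := ⟨fun c hc x => by
    rw [Subgroup.mem_center_iff.1 (hZ hc) x, mul_inv_cancel_right]; exact hc⟩
  let π := QuotientGroup.mk' Z
  haveI hA : IsMulCommutative (R'.map π) := ⟨⟨by
    rintro ⟨_, r, hr, rfl⟩ ⟨_, s, hs, rfl⟩
    apply Subtype.ext
    show π r * π s = π s * π r
    rw [← map_mul, ← map_mul, QuotientGroup.mk'_apply, QuotientGroup.mk'_apply, QuotientGroup.eq]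
    simpa [mul_assoc] using hcomm _ (inv_mem hs) _ (inv_mem hr)⟩⟩
  have hA3 : ∀ a ∈ R'.map π, a ^ 3 = 1 := by
    rintro _ ⟨r, hr, rfl⟩
    rw [← map_pow, hR3 r hr, map_one]
  have hAc : Nat.card (R'.map π) * Nat.card Z = Nat.card R' := by
    have hk : Nat.card (Z.subgroupOf R') = Nat.card Z :=
      Nat.card_congr (Subgroup.subgroupOfEquivOfLe hZR).toEquiv
    rw [← hk, ← (Z.subgroupOf R').card_mul_index, mul_comm]
    congr 1
    have h := Subgroup.relIndex_ker (K := R') (f := π)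
    rw [QuotientGroup.ker_mk'] at h
    exact h.symm
  have hcyc : ¬ IsCyclic (R'.map π) := fun hc => by
    obtain ⟨g, hg⟩ := IsCyclic.exists_ofOrder_eq_natCard (α := R'.map π)
    have h3 : orderOf g ∣ 3 := orderOf_dvd_of_pow_eq_one (Subtype.ext (by simpa using hA3 g g.2))
    have := Nat.le_of_dvd (by norm_num) (hg ▸ h3)
    have := Nat.mul_le_mul_right (Nat.card Z) this
    omega
  have hAD : R'.map π ≤ Subgroup.normalizer ((D.map π : Subgroup (M ⧸ Z)) : Set (M ⧸ Z)) := by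
    exact (Subgroup.map_mono hRD).trans (Subgroup.le_normalizer_map π)
  have hcop : (Nat.card (R'.map π)).Coprime (Nat.card (D.map π)) := by
    have h3g : IsPGroup 3 (R'.map π) := fun a => ⟨1, Subtype.ext (by simpa using hA3 a a.2)⟩
    obtain ⟨k, hk⟩ := h3g.exists_card_eq
    rw [hk]
    refine Nat.Coprime.pow_left k ((Nat.Prime.coprime_iff_not_dvd Nat.prime_three).2 fun h => hD3 ?_)
    exact h.trans (D.card_map_dvd π)
  have hDZ : ∀ d ∈ D, d ∈ Z → d = 1 := fun d hd hz => by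
    refine eq_one_of_coprime_pow ((Nat.Prime.coprime_iff_not_dvd Nat.prime_three).2 hD3).symm ?_
      (hR3 d (hZR hz))
    exact congrArg Subtype.val (pow_card_eq_one' (x := (⟨d, hd⟩ : D)))
  have key := CfsgLib.CoprimeAction.le_of_centralizers (A := R'.map π) (K := D.map π)
    (H := H.map π) hcyc hAD hcop (by
    rintro a ⟨x, hx, rfl⟩ ha1 y ⟨⟨d, hd, rfl⟩, hy⟩
    have hxZ : x ∉ Z := fun h => ha1 ((QuotientGroup.eq_one_iff x).2 h)
    refine Subgroup.mem_map_of_mem π (hcent x hx hxZ ⟨hd, Subgroup.mem_centralizer_iff.2 ?_⟩)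
    intro v hv
    rw [Set.mem_singleton_iff] at hv
    subst v
    have h1 : π (x * d) = π (d * x) := by
      rw [map_mul, map_mul]; exact Subgroup.mem_centralizer_iff.1 hy _ rfl
    rw [QuotientGroup.mk'_apply, QuotientGroup.mk'_apply, QuotientGroup.eq] at h1
    have h2 : (x * d)⁻¹ * (d * x) ∈ D := by
      have := mul_mem (inv_mem hd) ((Subgroup.mem_normalizer_iff.1 (hRD (inv_mem hx)) d).1 hd)
      simpa [mul_assoc] using this
    exact inv_mul_eq_one.1 (hDZ _ h2 h1))
  intro d hd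
  obtain ⟨h, hh, he⟩ := key (Subgroup.mem_map_of_mem π hd)
  rw [QuotientGroup.mk'_apply, QuotientGroup.mk'_apply, QuotientGroup.eq] at he
  simpa using mul_mem hh (hZH he)

/-- A normal `3'`-subgroup cut out by a homomorphism onto a central Sylow subgroup. -/
lemma exists_complement {K₀ U : Subgroup M} {u : M} (hU : U = Subgroup.zpowers u) (hu : orderOf u = 3)
    (hUK : U ≤ K₀) (hmax : ∀ P : Subgroup M, U ≤ P → P ≤ K₀ → IsPGroup 3 P → P ≤ U)
    (hinv : ∀ g ∈ K₀, g * u * g⁻¹ ≠ u⁻¹) :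
    ∃ D : Subgroup M, D ≤ K₀ ∧ ¬ 3 ∣ Nat.card D ∧
      (∀ d : M, d ∈ D ↔ d ∈ K₀ ∧ ∃ m : ℕ, ¬ 3 ∣ m ∧ d ^ m = 1) ∧ K₀ ≤ U ⊔ D := by
  classical
  haveI : Fact (Nat.Prime 3) := ⟨Nat.prime_three⟩
  let U₀ : Subgroup K₀ := U.subgroupOf K₀
  have hU₀3 : IsPGroup 3 U₀ := by
    refine IsPGroup.of_card (n := 1) ?_
    rw [Nat.card_congr (Subgroup.subgroupOfEquivOfLe hUK).toEquiv, hU, Nat.card_zpowers, hu, pow_one]
  obtain ⟨P, hUP⟩ := hU₀3.exists_le_sylow
  have hPU : (P : Subgroup K₀) = U₀ := by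
    refine le_antisymm ?_ hUP
    have h := hmax ((P : Subgroup K₀).map K₀.subtype)
      (fun x hx => ⟨⟨x, hUK hx⟩, hUP (Subgroup.mem_subgroupOf.2 hx), rfl⟩)
      (Subgroup.map_subtype_le _) (P.isPGroup'.map _)
    exact fun x hx => Subgroup.mem_subgroupOf.2 (h (Subgroup.mem_map_of_mem _ hx))
  have hnc : Subgroup.normalizer ((P : Subgroup K₀) : Set K₀) ≤
      Subgroup.centralizer ((P : Subgroup K₀) : Set K₀) := by
    intro g hg
    rw [hPU] at hg ⊢
    have hgu : (g : M) * u * (g : M)⁻¹ ∈ U := by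
      simpa [U₀, Subgroup.mem_subgroupOf] using (Subgroup.mem_normalizer_iff.1 hg
        ⟨u, hUK (hU ▸ Subgroup.mem_zpowers u)⟩).1
        (Subgroup.mem_subgroupOf.2 (hU ▸ Subgroup.mem_zpowers u))
    rw [hU, (isOfFinOrder_of_finite u).mem_zpowers_iff_mem_range_orderOf, hu] at hgu
    simp only [Finset.mem_image, Finset.mem_range] at hgu
    obtain ⟨i, hi, hgi⟩ := hgu
    have hgu' : (g : M) * u = u * (g : M) := by
      interval_cases i
      · rw [pow_zero, eq_comm, mul_inv_eq_one, mul_eq_left] at hgi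
        simp [hgi] at hu
      · exact mul_inv_eq_iff_eq_mul.1 (by simpa using hgi.symm)
      · exfalso
        refine hinv g g.2 ?_
        rw [← hgi]
        exact eq_inv_of_mul_eq_one_left (by
          rw [← pow_succ]
          simpa [hu] using pow_orderOf_eq_one u)
    intro x hx
    obtain ⟨n, hn⟩ := Subgroup.mem_zpowers_iff.1 (hU ▸ Subgroup.mem_subgroupOf.1 hx)
    apply Subtype.ext
    show (x : M) * g = g * x
    rw [← hn]
    exact ((show Commute (g : M) u from hgu').zpow_right n).eq.symm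
  have hcompl := MonoidHom.ker_transferSylow_isComplement' P hnc
  set D₀ := (MonoidHom.transferSylow P hnc).ker with hD₀
  have hcard : Nat.card D₀ = (P : Subgroup K₀).index := hcompl.index_eq_card.symm
  have h3 : ¬ 3 ∣ Nat.card D₀ := hcard ▸ P.not_dvd_index
  refine ⟨D₀.map K₀.subtype, Subgroup.map_subtype_le _, ?_, fun d => ⟨?_, ?_⟩, ?_⟩
  · rwa [Subgroup.card_map_of_injective K₀.subtype_injective]
  · rintro ⟨x, hx, rfl⟩
    exact ⟨x.2, _, h3, congrArg (fun y : D₀ => ((y : K₀) : M))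
      (pow_card_eq_one' (x := (⟨x, hx⟩ : D₀)))⟩
  · rintro ⟨hd, m, hm, hdm⟩
    refine ⟨⟨d, hd⟩, ?_, rfl⟩
    rw [SetLike.mem_coe, hD₀, MonoidHom.mem_ker]
    obtain ⟨k, hk⟩ := P.isPGroup' (MonoidHom.transferSylow P hnc ⟨d, hd⟩)
    refine eq_one_of_coprime_pow
      (((Nat.Prime.coprime_iff_not_dvd Nat.prime_three).2 hm).pow_left k).symm ?_ hk
    rw [← map_pow]
    convert map_one (MonoidHom.transferSylow P hnc)
    exact Subtype.ext hdm
  · intro x hx
    obtain ⟨⟨a, b⟩, hab⟩ := hcompl.2 ⟨x, hx⟩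
    have hx' : ((a : K₀) : M) * ((b : K₀) : M) = x := congrArg Subtype.val hab
    rw [← hx']
    have hb : (b : K₀) ∈ U₀ := hPU.le b.2
    exact mul_mem (Subgroup.mem_sup_right (Subgroup.mem_map_of_mem _ a.2))
      (Subgroup.mem_sup_left (Subgroup.mem_subgroupOf.1 hb))

/-- The data of the kernel `K` of the centraliser of an involution. -/
structure KernelData (N R R' Z K : Subgroup M) (u : M) : Prop where
  R_le : R ≤ N
  norm : ∀ n ∈ N, ∀ r ∈ R, n * r * n⁻¹ ∈ R
  R'_le : R' ≤ R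
  Z_le : Z ≤ R'
  Z_center : Z ≤ Subgroup.center M
  cube : ∀ r ∈ R', r ^ 3 = 1
  comm : ∀ r ∈ R', ∀ s ∈ R', r * s * r⁻¹ * s⁻¹ ∈ Z
  card : 3 * Nat.card Z < Nat.card R'
  cent : ∀ x ∈ R', x ∉ Z → ∀ g : M, g * x = x * g → g ∈ N
  inv : ∀ r ∈ R', ∀ k ∈ K, r * k * r⁻¹ ∈ K
  disjoint : K ⊓ R = ⊥
  u_mem : u ∈ K ⊓ N
  u_order : orderOf u = 3
  u_max : ∀ P : Subgroup M, Subgroup.zpowers u ≤ P → P ≤ K ⊓ N → IsPGroup 3 P → P ≤ Subgroup.zpowers u
  no_inv : ∀ g ∈ K ⊓ N, g * u * g⁻¹ ≠ u⁻¹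
  nine : ¬ 9 ∣ Nat.card ↥(K ⊓ N ⊓ Subgroup.centralizer ({u} : Set M))
  no_center : ∀ k ∈ K ⊓ N, k ^ 3 = 1 → (∀ l ∈ K ⊓ N, k * l = l * k) → k = 1

variable {N R R' Z K : Subgroup M} {u : M}

lemma KernelData.commute_mem (h : KernelData N R R' Z K u) {k : M} (hk : k ∈ K ⊓ N) {r : M}
    (hr : r ∈ R') : r * k = k * r := by
  have h1 : r * k * r⁻¹ * k⁻¹ ∈ K ⊓ R := by
    refine ⟨K.mul_mem (h.inv r hr k hk.1) (K.inv_mem hk.1), ?_⟩
    have := mul_mem (h.R'_le hr) (h.norm k hk.2 _ (inv_mem (h.R'_le hr)))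
    simpa [mul_assoc] using this
  rw [h.disjoint, Subgroup.mem_bot] at h1
  exact mul_inv_eq_iff_eq_mul.1 (mul_inv_eq_one.1 h1)

lemma KernelData.R'_normalizer (h : KernelData N R R' Z K u) (D : Subgroup M)
    (hD : ∀ r ∈ R', ∀ d ∈ D, r * d * r⁻¹ ∈ D) : R' ≤ Subgroup.normalizer (D : Set M) := fun r hr =>
  Subgroup.mem_normalizer_iff.2 fun d => ⟨hD r hr d, fun hd => by
    simpa [mul_assoc] using hD _ (inv_mem hr) _ hd⟩

/-- The kernel lies in `N`. -/
theorem KernelData.le (h : KernelData N R R' Z K u) : K ≤ N := by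
  classical
  haveI : Fact (Nat.Prime 3) := ⟨Nat.prime_three⟩
  set U := Subgroup.zpowers u with hU
  have hUK : U ≤ K := Subgroup.zpowers_le.2 h.u_mem.1
  have hUN : U ≤ N := Subgroup.zpowers_le.2 h.u_mem.2
  have hru : ∀ r ∈ R', ∀ x ∈ U, r * x = x * r := fun r hr x hx => by
    obtain ⟨n, rfl⟩ := Subgroup.mem_zpowers_iff.1 hx
    exact ((show Commute r u from h.commute_mem h.u_mem hr).zpow_right n).eq
  have hZN : Z ≤ N := h.Z_le.trans (h.R'_le.trans h.R_le)
  -- the centraliser of `u` in `K`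
  set C₀ : Subgroup M := K ⊓ Subgroup.centralizer ({u} : Set M) with hC₀
  have hUC : U ≤ C₀ := le_inf hUK (Subgroup.zpowers_le.2 (Subgroup.mem_centralizer_iff.2 (by simp)))
  have hC₀inv : ∀ r ∈ R', ∀ d ∈ C₀, r * d * r⁻¹ ∈ C₀ := fun r hr d hd =>
    ⟨h.inv r hr d hd.1, Subgroup.mem_centralizer_iff.2 fun v hv => by
      rw [Set.mem_singleton_iff] at hv; rw [hv]
      have h1 : Commute r u := h.commute_mem h.u_mem hr
      have h2 : Commute d u := (Subgroup.mem_centralizer_iff.1 hd.2 u rfl).symm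
      exact ((h1.mul_left h2).mul_left h1.inv_left).symm⟩
  have hR'p : IsPGroup 3 R' := fun r => ⟨1, Subtype.ext (by simpa using h.cube r r.2)⟩
  have hmax : ∀ P : Subgroup M, U ≤ P → P ≤ C₀ → IsPGroup 3 P → P ≤ U := by
    -- a Sylow subgroup normalised by `R'`
    set L : Subgroup M := R' ⊔ C₀ with hL
    have hRn := h.R'_normalizer C₀ hC₀inv
    obtain ⟨Q, hRQ⟩ := (hR'p.of_equiv
      (Subgroup.subgroupOfEquivOfLe (le_sup_left : R' ≤ L)).symm).exists_le_sylow
    set P : Subgroup M := (Q : Subgroup L).map L.subtype ⊓ C₀ with hPdef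
    have hUc : ∀ l ∈ L, ∀ x ∈ U, l * x = x * l := by
      have hle : L ≤ Subgroup.centralizer (U : Set M) := sup_le
        (fun r hr => Subgroup.mem_centralizer_iff.2 fun x hx => (hru r hr x hx).symm) (fun c hc =>
          Subgroup.mem_centralizer_iff.2 fun x hx => by
            obtain ⟨n, rfl⟩ := Subgroup.mem_zpowers_iff.1 hx
            exact ((show Commute u c from
              Subgroup.mem_centralizer_iff.1 hc.2 u rfl).zpow_left n).eq)
      exact fun l hl x hx => (Subgroup.mem_centralizer_iff.1 (hle hl) x hx).symm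
    have hQ3 : IsPGroup 3 ((Q : Subgroup L).map L.subtype) := Q.isPGroup'.map _
    have hP3 : IsPGroup 3 P := hQ3.to_le inf_le_left
    have hPC : P ≤ C₀ := inf_le_right
    have hUP : U ≤ P := by
      refine le_inf (fun x hx => ?_) hUC
      have hxL : x ∈ L := Subgroup.mem_sup_right (hUC hx)
      haveI : (U.subgroupOf L).Normal := ⟨fun y hy l => by
        rw [Subgroup.mem_subgroupOf] at hy ⊢
        simpa [hUc l l.2 y hy] using hy⟩
      exact ⟨⟨x, hxL⟩, (IsPGroup.of_equiv (IsPGroup.of_card (n := 1)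
        (by rw [Nat.card_zpowers, h.u_order, pow_one]) : IsPGroup 3 U)
        (Subgroup.subgroupOfEquivOfLe (hUC.trans le_sup_right : U ≤ L)).symm).le_sylow_of_normal Q
          (Subgroup.mem_subgroupOf.2 hx), rfl⟩
    have hRP : R' ≤ Subgroup.normalizer (P : Set M) := h.R'_normalizer P fun r hr d hd => by
      refine ⟨?_, hC₀inv r hr d hd.2⟩
      have hrQ : r ∈ (Q : Subgroup L).map L.subtype :=
        ⟨⟨r, Subgroup.mem_sup_left hr⟩, hRQ (Subgroup.mem_subgroupOf.2 hr), rfl⟩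
      exact Subgroup.mul_mem _ (Subgroup.mul_mem _ hrQ hd.1) (Subgroup.inv_mem _ hrQ)
    have hPU : P ≤ U := by
      by_contra hne
      -- an element fixed modulo `U` by `R'`
      have hUn : ∀ p ∈ P, ∀ x ∈ U, p * x = x * p := fun p hp x hx => by
        obtain ⟨n, rfl⟩ := Subgroup.mem_zpowers_iff.1 hx
        exact ((show Commute p u from
          (Subgroup.mem_centralizer_iff.1 (hPC hp).2 u rfl).symm).zpow_right n).eq
      haveI : (U.subgroupOf P).Normal := ⟨fun x hx p => by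
        have := hUn p p.2 x (Subgroup.mem_subgroupOf.1 hx)
        rw [Subgroup.mem_subgroupOf]
        simpa [this] using Subgroup.mem_subgroupOf.1 hx⟩
      letI : MulAction R' (P ⧸ U.subgroupOf P) :=
        { smul := fun r => Quotient.map' (fun p => ⟨(r : M) * p * (r : M)⁻¹,
              (Subgroup.mem_normalizer_iff.1 (hRP r.2) _).1 p.2⟩) fun a b hab => by
            rw [QuotientGroup.leftRel_apply, Subgroup.mem_subgroupOf] at hab ⊢
            have e := hru r r.2 ((a : M)⁻¹ * b) hab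
            simpa [mul_assoc] using (show (r : M) * ((a : M)⁻¹ * b) * (r : M)⁻¹ ∈ U by
              rw [e, mul_inv_cancel_right]; exact hab)
          one_smul := fun x => by
            induction x using QuotientGroup.induction_on with | _ a =>
            exact congrArg QuotientGroup.mk (Subtype.ext (by simp))
          mul_smul := fun r s x => by
            induction x using QuotientGroup.induction_on with | _ a =>
            exact congrArg QuotientGroup.mk (Subtype.ext (by simp [mul_assoc])) }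
      have hdvd : 3 ∣ Nat.card (P ⧸ U.subgroupOf P) := by
        obtain ⟨k, hk⟩ := (hP3.to_quotient (U.subgroupOf P)).exists_card_eq
        rcases k with _ | k
        · exfalso; apply hne
          exact Subgroup.subgroupOf_eq_top.1 (Subgroup.index_eq_one.1 (by simpa [Subgroup.index] using hk))
        · exact hk ▸ dvd_pow_self 3 (by omega)
      obtain ⟨q, hq, hq1⟩ := hR'p.exists_fixed_point_of_prime_dvd_card_of_fixed_point
        (P ⧸ U.subgroupOf P) hdvd (a := ((1 : P) : P ⧸ U.subgroupOf P)) (fun r =>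
          congrArg QuotientGroup.mk (Subtype.ext (by simp)))
      induction q using QuotientGroup.induction_on with | _ g =>
      have hgU : (g : M) ∉ U := fun hg => hq1 ((QuotientGroup.eq).2
        (Subgroup.mem_subgroupOf.2 (by simpa using hg)))
      have hfix : ∀ r ∈ R', (g : M)⁻¹ * (r * g * r⁻¹) ∈ U := fun r hr => by
        have := QuotientGroup.eq.1 (hq ⟨r, hr⟩).symm
        exact Subgroup.mem_subgroupOf.1 this
      -- `r ↦ g⁻¹ r g r⁻¹` is a homomorphism
      let f : R' →* U :=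
        { toFun := fun r => ⟨_, hfix r r.2⟩
          map_one' := Subtype.ext (by simp)
          map_mul' := fun r s => Subtype.ext (by
            have e := hru r r.2 _ (hfix s s.2)
            show (g : M)⁻¹ * (↑(r * s) * g * (↑(r * s))⁻¹) =
              (g : M)⁻¹ * (↑r * g * (↑r)⁻¹) * ((g : M)⁻¹ * (↑s * g * (↑s)⁻¹))
            calc (g : M)⁻¹ * (↑(r * s) * g * (↑(r * s))⁻¹)
                = (g : M)⁻¹ * (r : M) * g * ((g : M)⁻¹ * (↑s * g * (↑s)⁻¹)) * (r : M)⁻¹ := by
                  simp [mul_assoc]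
              _ = (g : M)⁻¹ * (r : M) * g * ((r : M)⁻¹ * (((g : M)⁻¹ * (↑s * g * (↑s)⁻¹)) * r)
                    * (r : M)⁻¹) := by rw [← e]; group
              _ = _ := by group) }
      have hker : ¬ f.ker ≤ Z.subgroupOf R' := fun hle => by
        have h1 := f.ker.card_mul_index
        have h2 : f.ker.index ≤ 3 := by
          rw [Subgroup.index_ker]
          exact (Nat.le_of_dvd Nat.card_pos (Subgroup.card_subgroup_dvd_card _)).trans
            (by rw [Nat.card_zpowers, h.u_order])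
        have h3 : Nat.card f.ker ≤ Nat.card Z :=
          (Nat.le_of_dvd Nat.card_pos (Subgroup.card_dvd_of_le hle)).trans
            (Nat.card_congr (Subgroup.subgroupOfEquivOfLe h.Z_le).toEquiv).le
        have := Nat.mul_le_mul h3 h2
        have := h.card
        omega
      obtain ⟨x, hxk, hxZ⟩ := SetLike.not_le_iff_exists.1 hker
      have hgx : (g : M) * x = x * g := by
        have := inv_mul_eq_one.1 (congrArg Subtype.val hxk : (g : M)⁻¹ * (↑x * g * (↑x)⁻¹) = 1)
        conv_lhs => rw [this]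
        group
      have hgN : (g : M) ∈ N :=
        h.cent x x.2 (fun hh => hxZ (Subgroup.mem_subgroupOf.2 hh)) _ hgx
      refine hgU (h.u_max (U ⊔ Subgroup.zpowers (g : M)) le_sup_left ?_ ?_
        (Subgroup.mem_sup_right (Subgroup.mem_zpowers _)))
      · exact sup_le (le_inf hUK hUN) (Subgroup.zpowers_le.2 ⟨(hPC g.2).1, hgN⟩)
      · exact hP3.to_le (sup_le hUP (Subgroup.zpowers_le.2 g.2))
    intro P₀ hUP₀ hP₀C hP₀3
    obtain ⟨Q', hQ'⟩ := (hP₀3.of_equiv
      (Subgroup.subgroupOfEquivOfLe (hP₀C.trans le_sup_right : P₀ ≤ L)).symm).exists_le_sylow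
    obtain ⟨l, hl⟩ := MulAction.exists_smul_eq L Q Q'
    intro x hx
    have hxQ' : (⟨x, Subgroup.mem_sup_right (hP₀C hx)⟩ : L) ∈ (Q' : Subgroup L) :=
      hQ' (Subgroup.mem_subgroupOf.2 hx)
    rw [← hl, Sylow.smul_def, Sylow.pointwise_smul_def,
      Subgroup.mem_pointwise_smul_iff_inv_smul_mem] at hxQ'
    have hlx : (l : M)⁻¹ * x * (l : M) ∈ C₀ := by
      have hLn : L ≤ Subgroup.normalizer (C₀ : Set M) := sup_le hRn Subgroup.le_normalizer
      simpa using (Subgroup.mem_normalizer_iff.1 (hLn (inv_mem l.2)) x).1 (hP₀C hx)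
    have hlU : (l : M)⁻¹ * x * (l : M) ∈ U := hPU ⟨⟨_, hxQ', by simp [MulAut.smul_def]⟩, hlx⟩
    have e := hUc l l.2 _ hlU
    have : x = (l : M) * ((l : M)⁻¹ * x * (l : M)) * (l : M)⁻¹ := by group
    rw [this, e, mul_inv_cancel_right]
    exact hlU
  -- a complement in `C₀`
  obtain ⟨D₀, hD₀C, hD₀3, hD₀mem, hC₀le⟩ := exists_complement hU h.u_order hUC hmax fun g hg e => by
    have hg' : g * u = u * g := (Subgroup.mem_centralizer_iff.1 hg.2 u rfl).symm
    rw [hg', mul_inv_cancel_right] at e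
    exact absurd (orderOf_dvd_of_pow_eq_one (show u ^ 2 = 1 by
      rw [pow_two]; nth_rewrite 1 [e]; exact inv_mul_cancel u)) (by rw [h.u_order]; norm_num)
  have key : ∀ (C D : Subgroup M), D ≤ K → ¬ 3 ∣ Nat.card D →
      (∀ r ∈ R', ∀ d ∈ C, r * d * r⁻¹ ∈ C) →
      (∀ d : M, d ∈ D ↔ d ∈ C ∧ ∃ m : ℕ, ¬ 3 ∣ m ∧ d ^ m = 1) → D ≤ N := by
    intro C D hDK hD3 hC hmem
    refine le_of_centralizers_mod h.Z_center h.Z_le h.cube h.comm h.card
      (h.R'_normalizer D fun r hr d hd => ?_) hD3 hZN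
      fun x hx hxZ d hd => h.cent x hx hxZ d (Subgroup.mem_centralizer_iff.1 hd.2 x rfl).symm
    obtain ⟨hdC, m, hm, hdm⟩ := (hmem d).1 hd
    exact (hmem _).2 ⟨hC r hr d hdC, m, hm, by rw [conj_pow, hdm, mul_one, mul_inv_cancel]⟩
  have hC₀N : C₀ ≤ N :=
    hC₀le.trans (sup_le hUN (key C₀ D₀ (hD₀C.trans inf_le_left) hD₀3 hC₀inv hD₀mem))
  -- no element of `K` inverts `u`
  have hinv : ∀ g ∈ K, g * u * g⁻¹ ≠ u⁻¹ := by
    intro g₀ hg₀ hgu₀
    let I := {g : M // g ∈ K ∧ g * u * g⁻¹ = u⁻¹}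
    letI : MulAction R' I :=
      { smul := fun r g => ⟨(r : M) * g.1 * (r : M)⁻¹, h.inv r r.2 _ g.2.1, by
          have e : (r : M) * u = u * (r : M) := hru r r.2 u (Subgroup.mem_zpowers u)
          have e' : (r : M)⁻¹ * u = u * (r : M)⁻¹ := (show Commute (r : M) u from e).inv_left
          calc (r : M) * g.1 * (r : M)⁻¹ * u * ((r : M) * g.1 * (r : M)⁻¹)⁻¹
              = (r : M) * g.1 * ((r : M)⁻¹ * u) * r * g.1⁻¹ * (r : M)⁻¹ := by group
            _ = (r : M) * (g.1 * u * g.1⁻¹) * (r : M)⁻¹ := by rw [e']; group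
            _ = u⁻¹ := by
              rw [g.2.2, (show Commute (r : M) u from e).inv_right.eq, mul_inv_cancel_right]⟩
        one_smul := fun g => Subtype.ext (by show (1 : M) * g.1 * (1 : M)⁻¹ = g.1; simp)
        mul_smul := fun r s g => Subtype.ext (by
          show ((r * s : R') : M) * g.1 * ((r * s : R') : M)⁻¹ =
            (r : M) * ((s : M) * g.1 * (s : M)⁻¹) * (r : M)⁻¹
          simp [mul_assoc]) }
    have hstab : ∀ g : I, MulAction.stabilizer R' g = Z.subgroupOf R' := by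
      intro g
      ext r
      rw [MulAction.mem_stabilizer_iff, Subgroup.mem_subgroupOf]
      refine ⟨fun e => ?_, fun hr => Subtype.ext ?_⟩
      · by_contra hrZ
        have e' : (r : M) * g.1 * (r : M)⁻¹ = g.1 := congrArg Subtype.val e
        exact h.no_inv g.1 ⟨g.2.1, h.cent r r.2 hrZ _ (mul_inv_eq_iff_eq_mul.1 e').symm⟩ g.2.2
      · show (r : M) * g.1 * (r : M)⁻¹ = g.1
        rw [← Subgroup.mem_center_iff.1 (h.Z_center hr) g.1, mul_inv_cancel_right]
    have h9 : 9 ∣ (Z.subgroupOf R').index := by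
      obtain ⟨k, hk⟩ := hR'p.index (Z.subgroupOf R')
      have hc : (Z.subgroupOf R').index * Nat.card Z = Nat.card R' := by
        rw [← Nat.card_congr (Subgroup.subgroupOfEquivOfLe h.Z_le).toEquiv, mul_comm]
        exact (Z.subgroupOf R').card_mul_index
      have h3 : 3 < 3 ^ k := Nat.lt_of_mul_lt_mul_right (a := Nat.card Z) (by rw [← hk, hc]; exact h.card)
      rw [hk]
      refine pow_dvd_pow 3 (?_ : 2 ≤ k)
      by_contra hk2
      interval_cases k <;> omega
    have hI : 9 ∣ Nat.card I := by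
      have := Fintype.ofFinite (MulAction.orbitRel.Quotient R' I)
      rw [Nat.card_congr (MulAction.selfEquivSigmaOrbits R' I), Nat.card_sigma]
      refine Finset.dvd_sum fun ω _ => h9.trans (dvd_of_eq ?_)
      rw [← hstab ω.out, MulAction.index_stabilizer]
      rw [Nat.card_coe_set_eq]
    refine h.nine (hI.trans (dvd_of_eq ?_))
    rw [show K ⊓ N ⊓ Subgroup.centralizer ({u} : Set M) = C₀ from le_antisymm
      (fun x hx => ⟨hx.1.1, hx.2⟩) (fun x hx => ⟨⟨hx.1, hC₀N hx⟩, hx.2⟩)]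
    refine Nat.card_congr
      { toFun := fun g => ⟨g₀⁻¹ * g.1, K.mul_mem (K.inv_mem hg₀) g.2.1,
          Subgroup.mem_centralizer_iff.2 fun v hv => by
            rw [Set.mem_singleton_iff] at hv
            rw [hv]
            have e : g.1 * u * g.1⁻¹ = g₀ * u * g₀⁻¹ := g.2.2.trans hgu₀.symm
            calc u * (g₀⁻¹ * g.1) = g₀⁻¹ * (g₀ * u * g₀⁻¹) * g.1 := by group
              _ = g₀⁻¹ * g.1 * u := by rw [← e]; group⟩
        invFun := fun c => ⟨g₀ * c.1, K.mul_mem hg₀ c.2.1, by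
          have e : u * c.1 = c.1 * u := Subgroup.mem_centralizer_iff.1 c.2.2 u rfl
          calc g₀ * c.1 * u * (g₀ * c.1)⁻¹ = g₀ * (c.1 * u) * c.1⁻¹ * g₀⁻¹ := by group
            _ = g₀ * u * g₀⁻¹ := by rw [← e]; group
            _ = u⁻¹ := hgu₀⟩
        left_inv := fun g => Subtype.ext (by simp)
        right_inv := fun c => Subtype.ext (by simp) }
  have hKmax : ∀ P : Subgroup M, U ≤ P → P ≤ K → IsPGroup 3 P → P ≤ U := by
    intro P hUP hPK hP3
    by_contra hne
    obtain ⟨g, hgP, hgU, hgn⟩ := exists_normalizing_outside hP3 hUP hne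
    have hgu : g * u * g⁻¹ ∈ U := (Subgroup.mem_normalizer_iff.1 hgn u).1 (Subgroup.mem_zpowers u)
    rw [hU, (isOfFinOrder_of_finite u).mem_zpowers_iff_mem_range_orderOf, h.u_order] at hgu
    simp only [Finset.mem_image, Finset.mem_range] at hgu
    obtain ⟨i, hi, hgi⟩ := hgu
    interval_cases i
    · rw [pow_zero, eq_comm, mul_inv_eq_one, mul_eq_left] at hgi
      exact absurd h.u_order (by simp [hgi])
    · have hgC : g ∈ C₀ := ⟨hPK hgP, Subgroup.mem_centralizer_iff.2 fun v hv => by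
        rw [Set.mem_singleton_iff] at hv
        rw [hv]
        exact (mul_inv_eq_iff_eq_mul.1 (by simpa using hgi.symm)).symm⟩
      exact hgU (hmax (U ⊔ Subgroup.zpowers g) le_sup_left
        (sup_le hUC (Subgroup.zpowers_le.2 hgC))
        (hP3.to_le (sup_le hUP (Subgroup.zpowers_le.2 hgP)))
        (Subgroup.mem_sup_right (Subgroup.mem_zpowers g)))
    · refine hinv g (hPK hgP) (hgi.symm.trans (eq_inv_of_mul_eq_one_left ?_))
      rw [← pow_succ]
      simpa [h.u_order] using pow_orderOf_eq_one u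
  obtain ⟨D, hDK, hD3, hDmem, hKle⟩ := exists_complement hU h.u_order hUK hKmax hinv
  exact hKle.trans (sup_le hUN (key K D hDK hD3 h.inv hDmem))

/-- `R'` centralises the kernel. -/
theorem KernelData.commute (h : KernelData N R R' Z K u) {k : M} (hk : k ∈ K) {r : M} (hr : r ∈ R') :
    r * k = k * r :=
  h.commute_mem ⟨hk, h.le hk⟩ hr

/-- An element mapping `r` into `r' K` while normalising `K` maps `r` to `r'`. -/
theorem KernelData.conj_eq (h : KernelData N R R' Z K u) {g r r' : M}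
    (hgK : ∀ k ∈ K, g⁻¹ * k * g ∈ K) (hr : r ∈ R') (hr' : r' ∈ R')
    (hk : r'⁻¹ * (g * r * g⁻¹) ∈ K) : g * r * g⁻¹ = r' := by
  set k := r'⁻¹ * (g * r * g⁻¹) with hkdef
  have he : g * r * g⁻¹ = r' * k := by rw [hkdef]; group
  have hcom : ∀ l ∈ K, k * l = l * k := by
    intro l hl
    have h1 : Commute r (g⁻¹ * l * g) := h.commute (hgK l hl) hr
    have h2 : Commute r' l := h.commute hl hr'
    have h3 : Commute (g * r * g⁻¹) l := by
      show g * r * g⁻¹ * l = l * (g * r * g⁻¹)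
      calc g * r * g⁻¹ * l = g * (r * (g⁻¹ * l * g)) * g⁻¹ := by group
        _ = l * (g * r * g⁻¹) := by rw [h1.eq]; group
    exact (h2.inv_left.mul_left h3).eq
  have h3 : k ^ 3 = 1 := by
    have e : (g * r * g⁻¹) ^ 3 = 1 := by rw [conj_pow, h.cube r hr, mul_one, mul_inv_cancel]
    have hc : Commute r' k := h.commute hk hr'
    rw [he, hc.mul_pow, h.cube r' hr', one_mul] at e
    exact e
  rw [he, h.no_center k ⟨hk, h.le hk⟩ h3 fun l hl => hcom l hl.1, mul_one]

/-- An element whose image commutes with that of `x` commutes with `x`. -/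
theorem KernelData.mem_of_lift (h : KernelData N R R' Z K u) {g x : M}
    (hgK : ∀ k ∈ K, g⁻¹ * k * g ∈ K) (hx : x ∈ R') (hxZ : x ∉ Z)
    (hk : x⁻¹ * (g * x * g⁻¹) ∈ K) : g ∈ N :=
  h.cent x hx hxZ g (mul_inv_eq_iff_eq_mul.1 (h.conj_eq hgK hx hx hk))

/-- An element normalising `R' K` lies in `N`, given that `N` induces all the automorphisms of
`R'` trivial on `Z`. -/
theorem KernelData.mem_of_conj (h : KernelData N R R' Z K u) {g : M}
    (hgK : ∀ k ∈ K, g⁻¹ * k * g ∈ K)
    (hg : ∀ r ∈ R', ∃ r' ∈ R', r'⁻¹ * (g * r * g⁻¹) ∈ K)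
    (hext : (∀ r ∈ R', g * r * g⁻¹ ∈ R') → ∃ n ∈ N, ∀ r ∈ R', n * r * n⁻¹ = g * r * g⁻¹)
    {x : M} (hx : x ∈ R') (hxZ : x ∉ Z) : g ∈ N := by
  obtain ⟨n, hn, hnr⟩ := hext fun r hr => by
    obtain ⟨r', hr', hk⟩ := hg r hr
    rw [h.conj_eq hgK hr hr' hk]
    exact hr'
  have hmem : n⁻¹ * g ∈ N := h.cent x hx hxZ _ (by
    calc n⁻¹ * g * x = n⁻¹ * (g * x * g⁻¹) * g := by group
      _ = x * (n⁻¹ * g) := by rw [← hnr x hx]; group)
  simpa using N.mul_mem hn hmem

/-- The normaliser of a Sylow `2`-subgroup `S` of `N` lies in `N`, as it permutes `t` and `t'`. -/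
theorem normalizer_le_of_swap {N S : Subgroup M} {t t' σ : M} (hσ : σ ∈ N)
    (hswap : σ * t * σ⁻¹ = t')
    (hchar : ∀ g ∈ Subgroup.normalizer (S : Set M), g * t * g⁻¹ = t ∨ g * t * g⁻¹ = t')
    (hcent : ∀ g : M, g * t = t * g → g ∈ N) {g : M} (hg : g ∈ Subgroup.normalizer (S : Set M)) :
    g ∈ N := by
  rcases hchar g hg with h | h
  · exact hcent g (mul_inv_eq_iff_eq_mul.1 h)
  · have hmem : σ⁻¹ * g ∈ N := hcent _ (by
      calc σ⁻¹ * g * t = σ⁻¹ * (g * t * g⁻¹) * g := by group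
        _ = t * (σ⁻¹ * g) := by rw [h, ← hswap]; group)
    simpa using N.mul_mem hσ hmem

end CfsgLib.Geometric.SUNine
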