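import Cfsg.Agent.Lib.Geometric.TensorUnitary.Maximal
import Cfsg.Prelude.Def_GeometricClasses

/-! Tensor squares of unitary three-spaces give maximal subgroups of `SU₉(q)`. -/

set_option autoImplicit false
open Cfsg

namespace CfsgLib.Geometric.SUNine

/-- Stabilisers of tensor squares. -/
theorem tensor {F : Type*} [Field F] [Fintype F] {q : ℕ} (hF : Fintype.card F = q ^ 2) :
    3 ≤ q → ∀ (e : Fin 9 ≃ (Fin 2 → Fin 3)) (P : Matrix.GeneralLinearGroup (Fin 9) F) (f₁ : (Fin 3 → F) → (Fin 3 → F) → F), Cfsg.Geo.IsUnitaryFormPow q f₁ → Cfsg.Geo.IsTensorPowerFormStructure (fun x : F => x ^ q) (Cfsg.hermForm 9 F q) f₁ e P → Cfsg.Geo.IsMaximalIn (Cfsg.GU 9 F q ⊓ Cfsg.Geo.specialLinear (Fin 9) F) (Cfsg.Geo.tensorWreathSubgroup 3 2 e P ⊓ (Cfsg.GU 9 F q ⊓ Cfsg.Geo.specialLinear (Fin 9) F)) :=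
  fun hq e P f₁ hf₁ hT => TPowU.isMaximalIn_GU hF le_rfl le_rfl (by omega) e P hf₁ hT

end CfsgLib.Geometric.SUNine
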